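import Cfsg.Agent.Chev.CurtisRichen.Existence
import Cfsg.Agent.Blocks.BrauerChar.ClassCount
import Cfsg.Agent.Blocks.Glauberman
import Cfsg.Agent.Chev.TorusCert

/-!
# The number of `p`-regular classes of a simply connected Chevalley group

The irreducible representations in the defining characteristic correspond to the weights
(Curtis–Richen), of which there are `q ^ l`, and their number is that of the `p`-regular classes.
-/

set_option autoImplicit false
set_option linter.unusedSectionVars false
set_option linter.style.haveILetI false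

namespace CfsgLib.Chev.Sys

open Cfsg Cfsg.Lie CfsgLib.BrauerChar

universe u v

theorem irred_of_isIrreducible {k : Type v} [Field k] {G : Type u} [Group G] {V : Type*}
    [AddCommGroup V] [Module k V] {σ : Representation k G V} (h : σ.IsIrreducible) :
    ∀ W : Submodule k V, (∀ g, W ≤ W.comap (σ g)) → W = ⊥ ∨ W = ⊤ := by
  intro W hW
  haveI := h
  rcases eq_bot_or_eq_top (⟨W, fun g x hx => hW g hx⟩ : Subrepresentation σ) with e | e
  · exact Or.inl (congrArg (fun R : Subrepresentation σ => R.toSubmodule) e)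
  · exact Or.inr (congrArg (fun R : Subrepresentation σ => R.toSubmodule) e)

theorem card_wgt {D : ChevalleyDatum} (S : Sys.{u} D) (F : Type u) [Field F] [Fintype F]
    (k : Type v) [Field k] [IsAlgClosed k] (hk : (Fintype.card F : k) = 0) :
    Nat.card (S.Wgt F k) = Fintype.card F ^ D.rank := by
  classical
  have hexp : Monoid.exponent Fˣ = Fintype.card F - 1 := by
    rw [IsCyclic.exponent_eq_card, Nat.card_eq_fintype_card, Fintype.card_units]
  haveI : NeZero ((Monoid.exponent Fˣ : ℕ) : k) := ⟨by
    rw [hexp, Nat.cast_sub Fintype.card_pos, hk, zero_sub, Nat.cast_one]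
    exact neg_ne_zero.2 one_ne_zero⟩
  haveI : NeZero (Monoid.exponent Fˣ) := ⟨Monoid.exponent_ne_zero_of_finite⟩
  have h := CommGroup.card_monoidHom_of_hasEnoughRootsOfUnity Fˣ k
  rw [Nat.card_eq_fintype_card (α := Fˣ), Fintype.card_units] at h
  haveI : Finite (Fˣ →* kˣ) := Nat.finite_of_card_ne_zero (by
    rw [h]
    have := Fintype.one_lt_card (α := F)
    omega)
  rw [Nat.card_pi, Finset.prod_const, Finset.card_univ, Fintype.card_fin, Finite.card_option, h,
    Nat.sub_add_cancel Fintype.card_pos]

/-- The count of the `p`-regular classes. -/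
theorem card_pRegular_classes {D : ChevalleyDatum} (S : Sys.{u} D) (F : Type u) [Field F] [Fintype F]
    (p : ℕ) [hp : Fact p.Prime] [CharP F p]
    (hH : Nat.card (D.diagonalSubgroup F) = (Fintype.card F - 1) ^ D.rank) :
    Nat.card {c : ConjClasses (D.group F) // ∃ g : D.group F, ConjClasses.mk g = c ∧ ¬ p ∣ orderOf g} =
      Fintype.card F ^ D.rank := by
  classical
  haveI := finite_GL (D := D) (F := F)
  haveI : Finite (D.group F) := Subtype.finite
  haveI := Fintype.ofFinite (D.group F)
  obtain ⟨M, hM⟩ := CfsgLib.Blocks.exists_modular hp.out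
  have hk : (Fintype.card F : RF hM) = 0 := by
    obtain ⟨n, -, hn⟩ := FiniteField.card F p
    rw [hn, Nat.cast_pow, CharP.cast_eq_zero (RF hM) p, zero_pow n.pos.ne']
  rw [← card_IBr_eq_card_regular_classes hM, ← S.card_wgt F (RF hM) hk]
  choose n σ x hirr hwt using fun ω : S.Wgt F (RF hM) => S.exists_irreducible_wt (k := RF hM) hk hH ω
  have hkey : ∀ ω ω' (e : (Fin (n ω) → RF hM) ≃ₗ[RF hM] (Fin (n ω') → RF hM)),
      (∀ g, σ ω' g = e.conj (σ ω g)) → ω = ω' := fun ω ω' e he =>
    S.wt_unique (σ ω') p (irred_of_isIrreducible (hirr ω'))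
      ((hwt ω).map (σ := σ ω') e.toLinearMap
        (fun g y => by rw [he, LinearEquiv.conj_apply_apply]; simp)
        fun h => (hwt ω).1 (e.map_eq_zero_iff.1 h)) (hwt ω')
  refine (Nat.card_congr (Equiv.ofBijective
    (fun ω => (⟨bc hM (σ ω), n ω, σ ω, hirr ω, rfl⟩ : IBr hM (D.group F))) ⟨fun ω ω' h => ?_, fun φ => ?_⟩)).symm
  · by_contra hne
    haveI : Finite (S.Wgt F (RF hM)) := Nat.finite_of_card_ne_zero (by
      rw [S.card_wgt F (RF hM) hk]
      exact pow_ne_zero _ Fintype.card_ne_zero)
    haveI := Fintype.ofFinite (S.Wgt F (RF hM))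
    have hbc : bc hM (σ ω) = bc hM (σ ω') := congrArg Subtype.val h
    have h0 := trace_indep n σ hirr hkey
      (fun η => (if η = ω then 1 else 0) - (if η = ω' then (1 : RF hM) else 0)) fun g hg => by
        simp only [sub_mul, ite_mul, one_mul, zero_mul, Finset.sum_sub_distrib, Finset.sum_ite_eq',
          Finset.mem_univ, if_true]
        rw [← res_bc (σ ω) hg, ← res_bc (σ ω') hg, sub_eq_zero]
        exact congrArg _ (Subtype.ext (congrFun hbc g))
    have := congrFun h0 ω
    simp [hne] at this
  · obtain ⟨φ, m, ρ, hρ, rfl⟩ := φ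
    haveI := nontrivial_of_irreducible hρ
    obtain ⟨v, ω, hv⟩ := S.exists_hasWt ρ p
    obtain ⟨e, he⟩ := S.iso_of_wt (σ ω) p ρ (irred_of_isIrreducible (hirr ω)) (irred_of_isIrreducible hρ)
      (hwt ω) hv
    exact ⟨ω, Subtype.ext (bc_equiv (σ ω) ρ e he).symm⟩

end CfsgLib.Chev.Sys
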