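import Cfsg.Agent.Chev.CurtisRichen.Levi

/-!
# Every weight occurs

In the regular representation the sum of the cell sums over the parabolic subgroup of the Weyl
group belonging to the roots where the weight is `none` is a weight vector; the head of the
representation it generates is irreducible of the same weight.
-/

set_option autoImplicit false
set_option linter.unusedSectionVars false
set_option linter.unusedDecidableInType false

namespace CfsgLib.Chev.Sys

open Cfsg Cfsg.Lie

universe u v

/-- The left regular representation. -/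
noncomputable def regRep (k : Type v) [Field k] (G : Type u) [Group G] : Representation k G (G → k) where
  toFun g := LinearMap.funLeft k k fun x => g⁻¹ * x
  map_one' := LinearMap.ext fun f => funext fun x => by simp
  map_mul' g h := LinearMap.ext fun f => funext fun x => by
    simp [LinearMap.funLeft_apply, mul_assoc]

theorem regRep_apply {k : Type v} [Field k] {G : Type u} [Group G] (g : G) (f : G → k) (x : G) :
    regRep k G g f x = f (g⁻¹ * x) := rfl

theorem regRep_single {k : Type v} [Field k] {G : Type u} [Group G] [DecidableEq G] (g y : G) :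
    regRep k G g (Pi.single y 1) = Pi.single (g * y) 1 := funext fun x => by
  rw [regRep_apply, Pi.single_apply, Pi.single_apply]
  exact if_congr inv_mul_eq_iff_eq_mul rfl rfl

variable {D : ChevalleyDatum} (S : Sys.{u} D) {F : Type u} [Field F] [Fintype F]
variable {k : Type v} [Field k]

/-- The torus is the product of the one-parameter subgroups of the fundamental roots. -/
theorem exists_lam (hH : Nat.card (D.diagonalSubgroup F) = (Fintype.card F - 1) ^ D.rank)
    (χ : Fin D.rank → (Fˣ →* kˣ)) :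
    ∃ lam : HG F S →* kˣ, ∀ (i : Fin D.rank) (a : Fˣ),
      lam ⟨S.etaG F i i.2 a, S.etaG_mem i.2 a⟩ = χ i a := by
  classical
  have hmem : ∀ c : Fin D.rank → Fˣ, S.dgHom (torHom D c) ∈ D.diagonalSubgroup F := fun c => by
    rw [S.diagonalSubgroup_eq]; exact ⟨c, rfl⟩
  let φ : (Fin D.rank → Fˣ) →* HG F S :=
    MonoidHom.mk' (fun c => ⟨⟨S.dgHom (torHom D c), S.diag_le_group (hmem c)⟩, hmem c⟩)
      fun a b => Subtype.ext (Subtype.ext (by simp [map_mul, S.dg_mul]))
  haveI := finite_GL (D := D) (F := F)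
  haveI : Finite (D.group F) := Subtype.finite
  have hsurj : Function.Surjective φ := by
    intro h
    have := Subgroup.mem_subgroupOf.1 h.2
    rw [S.diagonalSubgroup_eq] at this
    obtain ⟨c, hc⟩ := this
    exact ⟨c, Subtype.ext (Subtype.ext hc)⟩
  have hbij : Function.Bijective φ := by
    rw [Nat.bijective_iff_surjective_and_card]
    refine ⟨hsurj, ?_⟩
    rw [Nat.card_congr (Subgroup.subgroupOfEquivOfLe S.diag_le_group).toEquiv, hH, Nat.card_pi,
      Finset.prod_const, Finset.card_univ, Fintype.card_fin, Nat.card_eq_fintype_card, Fintype.card_units]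
  let e := MulEquiv.ofBijective φ hbij
  let π : (Fin D.rank → Fˣ) →* kˣ := ∏ i, (χ i).comp (Pi.evalMonoidHom _ i)
  refine ⟨π.comp e.symm.toMonoidHom, fun i a => ?_⟩
  have hφ : φ (Pi.mulSingle i a) = ⟨S.etaG F i i.2 a, S.etaG_mem i.2 a⟩ := by
    refine Subtype.ext (Subtype.ext ?_)
    show S.dg (torHom D (Pi.mulSingle i a)) = S.dg (hz D (D.simple i) a)
    refine S.dg_congr fun j _ => ?_
    show ∏ m : Fin D.rank, (Pi.mulSingle i a : Fin D.rank → Fˣ) m ^ _ = _
    rw [Finset.prod_eq_single_of_mem i (Finset.mem_univ _)]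
    · rw [Pi.mulSingle_eq_same, hz, S.cr_simple i.2]
    · intro m _ hm; rw [Pi.mulSingle_eq_of_ne hm, _root_.one_zpow]
  show π (e.symm _) = _
  rw [← hφ, show φ (Pi.mulSingle i a) = e (Pi.mulSingle i a) from rfl, e.symm_apply_apply]
  simp only [π, MonoidHom.finsetProd_apply, MonoidHom.comp_apply, Pi.evalMonoidHom_apply]
  rw [Finset.prod_eq_single_of_mem i (Finset.mem_univ _)]
  · rw [Pi.mulSingle_eq_same]
  · intro m _ hm; rw [Pi.mulSingle_eq_of_ne hm, map_one]

/-- Every weight has a weight vector in the regular representation. -/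
theorem exists_wt_regular [Fintype (D.group F)] (hk : (Fintype.card F : k) = 0)
    (hH : Nat.card (D.diagonalSubgroup F) = (Fintype.card F - 1) ^ D.rank) (ω : S.Wgt F k) :
    ∃ v, S.HasWt (regRep k (D.group F)) v ω := by
  classical
  obtain ⟨lam, hlam⟩ := S.exists_lam hH fun i => wchi (ω i)
  set J : Set (Fin D.rank) := {i | ω i = none} with hJdef
  set n0 := S.nL F S.L0 with hn0
  set ρ := regRep k (D.group F)
  -- `lam` kills `H_J`
  have hker : ∀ x (hx : x ∈ S.HJ F J), lam ⟨x, S.HJ_le hx⟩ = 1 := by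
    intro x hx
    induction hx using Subgroup.closure_induction with
    | mem y hy =>
      obtain ⟨i, hi, a, rfl⟩ := hy
      rw [hlam, show ω i = none from hi]
      rfl
    | one => exact map_one lam
    | mul a b ha hb h1 h2 =>
      have e : (⟨a * b, S.HJ_le (mul_mem ha hb)⟩ : HG F S) =
          ⟨a, S.HJ_le ha⟩ * ⟨b, S.HJ_le hb⟩ := rfl
      rw [e, map_mul, h1, h2, mul_one]
    | inv a ha h1 =>
      have e : (⟨a⁻¹, S.HJ_le (inv_mem ha)⟩ : HG F S) = (⟨a, S.HJ_le ha⟩ : HG F S)⁻¹ := rfl
      rw [e, map_inv, h1, inv_one]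
  have hconj : ∀ h : HG F S, n0 * (h : D.group F) * n0⁻¹ ∈ HG F S := fun h => by
    rw [Subgroup.mem_subgroupOf]
    push_cast
    rw [hn0, coe_nL]
    exact S.mono_conj_diag (S.nw_mem_mono S.L0_lt) (Subgroup.mem_subgroupOf.1 h.2)
  let mu : HG F S →* kˣ := MonoidHom.mk' (fun h => lam ⟨_, hconj h⟩) fun a b => by
    rw [← map_mul]
    congr 1
    exact Subtype.ext (by push_cast; group)
  -- the base vector
  let b : D.group F → k :=
    ∑ h : HG F S, ∑ u : UG F S, (((mu h)⁻¹ : kˣ) : k) • Pi.single ((h : D.group F) * (u : D.group F)) 1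
  have hbU : ∀ u ∈ UG F S, ρ u b = b := by
    intro u hu
    simp only [b, map_sum, map_smul]
    refine Finset.sum_congr rfl fun h _ => ?_
    have h1 : (h : D.group F)⁻¹ * u * h ∈ UG F S := by
      have := S.diag_conj_pos (inv_mem (Subgroup.mem_subgroupOf.1 h.2)) (Subgroup.mem_subgroupOf.1 hu)
      rw [inv_inv] at this
      exact Subgroup.mem_subgroupOf.2 (by push_cast; exact this)
    refine Fintype.sum_equiv (Equiv.mulLeft (⟨_, h1⟩ : UG F S)) _ _ fun x => ?_
    rw [regRep_single, Equiv.coe_mulLeft]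
    congr 2
    push_cast
    group
  have hbH : ∀ h : HG F S, ρ (h : D.group F) b = (mu h : k) • b := by
    intro h
    simp only [b, map_sum, map_smul, Finset.smul_sum]
    refine Fintype.sum_equiv (Equiv.mulLeft h) _ _ fun x => Finset.sum_congr rfl fun y _ => ?_
    rw [regRep_single, Equiv.coe_mulLeft, smul_smul, map_mul, mul_inv_rev, Units.val_mul,
      mul_comm (mu h : k), mul_assoc, Units.inv_mul, mul_one, Subgroup.coe_mul, mul_assoc]
  have hb : S.Eig ρ b := ⟨hbU, fun h hh => ⟨_, hbH ⟨h, hh⟩⟩⟩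
  have hb1 : b 1 = 1 := by
    simp only [b, Finset.sum_apply, Pi.smul_apply, Pi.single_apply, smul_eq_mul, mul_ite, mul_one, mul_zero]
    have huniq : ∀ (h : HG F S) (u : UG F S), (1 : D.group F) = (h : D.group F) * u → h = 1 ∧ u = 1 := by
      intro h u e
      have hu : ((u : D.group F) : GL D.Idx F) ∈ D.posUnipotent F ⊓ D.diagonalSubgroup F := by
        refine Subgroup.mem_inf.2 ⟨Subgroup.mem_subgroupOf.1 u.2, ?_⟩
        rw [show (u : D.group F) = (h : D.group F)⁻¹ from eq_inv_of_mul_eq_one_right e.symm]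
        push_cast
        exact inv_mem (Subgroup.mem_subgroupOf.1 h.2)
      rw [S.pos_inf_diag, Subgroup.mem_bot] at hu
      have hu1 : u = 1 := Subtype.ext (Subtype.ext hu)
      exact ⟨Subtype.ext (by simpa [hu1] using e.symm), hu1⟩
    rw [Finset.sum_eq_single (1 : HG F S), Finset.sum_eq_single (1 : UG F S)]
    · simp
    · exact fun u _ hne => if_neg fun e => hne (huniq _ _ e).2
    · simp
    · exact fun h _ hne => Finset.sum_eq_zero fun u _ => if_neg fun e => hne (huniq _ _ e).1
    · simp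
  have hbsupp : ∀ x, b x ≠ 0 → (x : GL D.Idx F) ∈ D.borelSubgroup F := by
    intro x hx
    by_contra hxb
    refine hx ?_
    simp only [b, Finset.sum_apply, Pi.smul_apply, Pi.single_apply, smul_eq_mul, mul_ite, mul_one, mul_zero]
    refine Finset.sum_eq_zero fun h _ => Finset.sum_eq_zero fun u _ => if_neg fun e => hxb ?_
    rw [e]
    push_cast
    exact mul_mem (Subgroup.mem_sup_right (Subgroup.mem_subgroupOf.1 h.2))
      (Subgroup.mem_sup_left (Subgroup.mem_subgroupOf.1 u.2))
  -- the cell sums of `J`-words followed by the longest word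
  let y : List ℕ → (D.group F → k) := fun Q => S.cellSum ρ (Q ++ S.L0) b
  have hlt : ∀ {Q}, S.JWord J Q → ∀ x ∈ Q ++ S.L0, x < D.rank := fun hQ x hx =>
    (List.mem_append.1 hx).elim (hQ.lt x) (S.L0_lt x)
  have hy : ∀ Q, S.JWord J Q → ∀ h : HG F S, ρ (h : D.group F) (y Q) = (lam h : k) • y Q := by
    intro Q hQ h
    set L := Q ++ S.L0 with hL
    have hd := S.nL_conj_HG (hlt hQ) h.2
    have hmu : mu ⟨_, hd⟩ = lam h := by
      have hx := S.nL_comm_HG hQ h.2
      have h2 : mu ⟨_, hd⟩ = lam (⟨_, S.HJ_le hx⟩ * h) := by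
        show lam _ = _
        congr 1
        refine Subtype.ext ?_
        show n0 * ((S.nL F L)⁻¹ * (h : D.group F) * S.nL F L) * n0⁻¹ = _ * (h : D.group F)
        rw [hL, S.nL_append, ← hn0]
        group
      rw [h2, map_mul, hker _ hx, one_mul]
    show ρ (h : D.group F) (S.cellSum ρ L b) = (lam h : k) • S.cellSum ρ L b
    rw [S.cellSum_eq, LinearMap.sum_apply, map_sum, Finset.smul_sum]
    set v := (S.wprod L)⁻¹
    have hcm : ∀ (g : D.group F), g ∈ HG F S → ∀ x : D.group F, (x : GL D.Idx F) ∈ S.uminus F v →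
        ((g * x * g⁻¹ : D.group F) : GL D.Idx F) ∈ S.uminus F v := fun g hg x hx => by
      push_cast
      exact S.diag_conj_genBy _ (Subgroup.mem_subgroupOf.1 hg) hx
    refine Finset.sum_bij' (fun x _ => (h : D.group F) * x * (h : D.group F)⁻¹)
      (fun x _ => (h : D.group F)⁻¹ * x * (h : D.group F))
      (fun x hx => Finset.mem_filter.2 ⟨Finset.mem_univ _, hcm _ h.2 x (Finset.mem_filter.1 hx).2⟩)
      (fun x hx => Finset.mem_filter.2 ⟨Finset.mem_univ _, by
        have := hcm _ (inv_mem h.2) x (Finset.mem_filter.1 hx).2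
        simpa using this⟩)
      (fun x _ => by group) (fun x _ => by group) fun x _ => ?_
    rw [← rep_mul_apply, ← hmu,
      show (h : D.group F) * (x * S.nL F L) =
        (h : D.group F) * x * (h : D.group F)⁻¹ * S.nL F L * ((S.nL F L)⁻¹ * (h : D.group F) * S.nL F L) by
          group,
      rep_mul_apply, show ρ ((S.nL F L)⁻¹ * (h : D.group F) * S.nL F L) b = _ from hbH ⟨_, hd⟩, map_smul]
  have hcongr : ∀ Q Q', S.JWord J Q → S.JWord J Q' → S.wprod Q = S.wprod Q' → y Q = y Q' := by
    intro Q Q' hQ hQ' e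
    obtain ⟨x, hx, hx'⟩ := S.nL_eq_mul_HJ (F := F) hQ hQ' e
    set d := n0⁻¹ * x * n0
    have hd : d ∈ HG F S := S.nL_conj_HG S.L0_lt (S.HJ_le hx)
    have hmu : mu ⟨d, hd⟩ = 1 := by
      show lam _ = 1
      rw [← hker x hx]
      congr 1
      exact Subtype.ext (by simp [d, mul_assoc])
    show S.cellSum ρ _ b = S.cellSum ρ _ b
    rw [S.cellSum_eq, S.cellSum_eq, LinearMap.sum_apply, LinearMap.sum_apply]
    refine Finset.sum_congr (by rw [wprod_append, wprod_append, e]) fun u _ => ?_
    rw [show u * S.nL F (Q ++ S.L0) = u * S.nL F (Q' ++ S.L0) * d by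
      rw [S.nL_append, S.nL_append, hx', ← hn0]; simp only [d]; group,
      rep_mul_apply, show ρ d b = _ from hbH ⟨d, hd⟩, hmu, Units.val_one, one_smul]
  -- the parabolic subgroup
  let WJ : Finset (Equiv.Perm (Fin D.nroots)) :=
    Finset.univ.filter fun w => ∃ Q, S.JWord J Q ∧ S.wprod Q = w
  let word : Equiv.Perm (Fin D.nroots) → List ℕ := fun w =>
    if h : ∃ Q, S.JWord J Q ∧ S.wprod Q = w then h.choose else []
  have hword : ∀ w ∈ WJ, S.JWord J (word w) ∧ S.wprod (word w) = w := by
    intro w hw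
    have h := (Finset.mem_filter.1 hw).2
    simp only [word, dif_pos h]
    exact h.choose_spec
  set v := ∑ w ∈ WJ, y (word w) with hv
  have hvH : ∀ h : HG F S, ρ (h : D.group F) v = (lam h : k) • v := fun h => by
    rw [hv, map_sum, Finset.smul_sum]
    exact Finset.sum_congr rfl fun w hw => hy _ (hword w hw).1 h
  have hposiff : ∀ (Q : List ℕ) (i : Fin D.rank),
      S.Pos ((S.wprod (((i : ℕ) :: Q) ++ S.L0))⁻¹ (S.sr i)) ↔ ¬S.Pos ((S.wprod (Q ++ S.L0))⁻¹ (S.sr i)) :=
    fun Q i => by
      rw [List.cons_append, S.wprod_cons_inv]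
      exact S.pos_mul_refl (inv_mem (S.wprod_mem_weyl _)) i
  refine ⟨v, ?_, fun u hu => ?_, fun i a => ?_, fun i => ?_⟩
  · -- the coefficient at the longest element
    intro h0
    have hval : v n0 = 1 := by
      have h1 : (1 : Equiv.Perm (Fin D.nroots)) ∈ WJ :=
        Finset.mem_filter.2 ⟨Finset.mem_univ _, [], fun q hq => by simp at hq, rfl⟩
      rw [hv, Finset.sum_apply]
      have hcoef : ∀ (L : List ℕ), (∀ x ∈ L, x < D.rank) → ∀ u : D.group F,
          (u : GL D.Idx F) ∈ S.uminus F (S.wprod L)⁻¹ →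
          ρ (u * S.nL F L) b n0 ≠ 0 → S.wprod L = S.wprod S.L0 := by
        intro L hL u hu hne
        rw [regRep_apply] at hne
        have hbb := hbsupp _ hne
        set bb := (((u * S.nL F L)⁻¹ * n0 : D.group F) : GL D.Idx F) with hbbdef
        have e : (u : GL D.Idx F) * S.nw F L * bb = 1 * S.nw F S.L0 * 1 := by
          rw [hbbdef, one_mul, mul_one]
          push_cast
          rw [hn0, coe_nL, coe_nL]
          group
        have hd := S.cell_unique (S.nw_mem_mono hL) (S.nw_mem_mono S.L0_lt)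
          (Subgroup.mem_sup_left (S.genBy_le_pos _ hu)) hbb (one_mem _) (one_mem _) e
        refine S.acts_unique ?_ (S.acts_nw (F := F) S.L0_lt)
        have h := S.acts_mul (S.acts_nw (F := F) hL) (S.acts_diag hd)
        rwa [mul_inv_cancel_left, mul_one] at h
      have hyval : ∀ w ∈ WJ, w ≠ 1 → y (word w) n0 = 0 := by
        intro w hw hne
        show S.cellSum ρ _ b n0 = 0
        rw [S.cellSum_eq, LinearMap.sum_apply, Finset.sum_apply]
        refine Finset.sum_eq_zero fun u hu => by_contra fun h => hne ?_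
        have := hcoef _ (hlt (hword w hw).1) u (Finset.mem_filter.1 hu).2 h
        rw [wprod_append, (hword w hw).2] at this
        exact mul_eq_right.1 this
      rw [Finset.sum_eq_single (1 : Equiv.Perm (Fin D.nroots)) hyval (fun h => absurd h1 h),
        hcongr _ [] (hword 1 h1).1 (fun q hq => by simp at hq) (by rw [(hword 1 h1).2]; rfl)]
      show S.cellSum ρ S.L0 b n0 = 1
      rw [S.cellSum_eq, LinearMap.sum_apply, Finset.sum_apply, Finset.sum_eq_single (1 : D.group F)]
      · rw [one_mul, regRep_apply, ← hn0, inv_mul_cancel, hb1]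
      · intro u hu hne
        by_contra h
        refine hne ?_
        rw [regRep_apply] at h
        have hbb := hbsupp _ h
        rw [← hn0, _root_.mul_inv_rev] at hbb
        push_cast at hbb
        rw [hn0, coe_nL] at hbb
        have hneg := S.uminus_conj_neg (S.acts_nw_inv (F := F) S.L0_lt)
          (inv_mem (Finset.mem_filter.1 hu).2)
        rw [inv_inv] at hneg
        have h0 := Subgroup.mem_inf.2 ⟨hbb, hneg⟩
        rw [S.borel_inf_neg, Subgroup.mem_bot] at h0
        have : ((u : GL D.Idx F))⁻¹ = 1 :=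
          calc ((u : GL D.Idx F))⁻¹ =
              S.nw F S.L0 * ((S.nw F S.L0)⁻¹ * (u : GL D.Idx F)⁻¹ * S.nw F S.L0) * (S.nw F S.L0)⁻¹ := by group
            _ = 1 := by rw [h0, mul_one, mul_inv_cancel]
        exact Subtype.ext (inv_eq_one.1 this)
      · exact fun h => absurd (Finset.mem_filter.2 ⟨Finset.mem_univ _, by simp⟩) h
    rw [h0, Pi.zero_apply] at hval
    exact zero_ne_one hval
  · rw [hv, map_sum]
    exact Finset.sum_congr rfl fun w hw => (S.Eig_cellSum ρ hb _ (hlt (hword w hw).1)).1 u hu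
  · rw [show S.etaG F i i.2 a = ((⟨S.etaG F i i.2 a, S.etaG_mem i.2 a⟩ : HG F S) : D.group F) from rfl,
      hvH, hlam]
  · have hdesc : ∀ w ∈ WJ, ¬S.Pos ((S.wprod (word w ++ S.L0))⁻¹ (S.sr i)) →
        ∀ [Decidable (wchi (ω i) = 1)],
        S.Tq ρ i (y (word w)) = (if wchi (ω i) = 1 then (-1 : k) else 0) • y (word w) := by
      intro w hw hn _
      exact S.Tq_cellSum_desc ρ hk (hlt (hword w hw).1) i hb hn fun a => by
        rw [show S.etaG F i i.2 a = ((⟨S.etaG F i i.2 a, S.etaG_mem i.2 a⟩ : HG F S) : D.group F) from rfl]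
        rw [hy _ (hword w hw).1, hlam]
    rw [hv, map_sum, Finset.smul_sum]
    cases hω : ω i with
    | none =>
      simp only [wev, zero_smul, Finset.sum_const_zero]
      have hiJ : i ∈ J := hω
      have h1 : wchi (ω i) = 1 := by rw [hω]; rfl
      have hcons : ∀ w ∈ WJ, S.JWord J ((i : ℕ) :: word w) ∧ S.refl i * w ∈ WJ ∧
          y (word (S.refl i * w)) = y ((i : ℕ) :: word w) := by
        intro w hw
        have hQ : S.JWord J ((i : ℕ) :: word w) := fun q hq => by
          rcases List.mem_cons.1 hq with rfl | hq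
          exacts [⟨i, hiJ, rfl⟩, (hword w hw).1 q hq]
        have hm : S.refl i * w ∈ WJ :=
          Finset.mem_filter.2 ⟨Finset.mem_univ _, _, hQ, by rw [wprod_cons, (hword w hw).2]⟩
        exact ⟨hQ, hm, hcongr _ _ (hword _ hm).1 hQ (by rw [(hword _ hm).2, wprod_cons, (hword w hw).2])⟩
      rw [← Finset.sum_filter_add_sum_filter_not WJ
        (fun w => S.Pos ((S.wprod (word w ++ S.L0))⁻¹ (S.sr i)))]
      have hflip : ∀ w ∈ WJ, (S.Pos ((S.wprod (word (S.refl i * w) ++ S.L0))⁻¹ (S.sr i)) ↔
          ¬S.Pos ((S.wprod (word w ++ S.L0))⁻¹ (S.sr i))) := fun w hw => by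
        rw [← hposiff (word w) i, wprod_append, wprod_append, (hword _ (hcons w hw).2.1).2, wprod_cons,
          (hword w hw).2]
      have e1 : ∀ w ∈ WJ.filter (fun w => S.Pos ((S.wprod (word w ++ S.L0))⁻¹ (S.sr i))),
          S.Tq ρ i (y (word w)) = y (word (S.refl i * w)) := by
        intro w hw
        obtain ⟨hw, hp⟩ := Finset.mem_filter.1 hw
        rw [(hcons w hw).2.2]
        show S.Tq ρ i (S.cellSum ρ _ b) = S.cellSum ρ _ b
        rw [← Module.End.mul_apply, S.Tq_cellSum_asc ρ (hlt (hword w hw).1) i hp, List.cons_append]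
      have e2 : ∀ w ∈ WJ.filter (fun w => ¬S.Pos ((S.wprod (word w ++ S.L0))⁻¹ (S.sr i))),
          S.Tq ρ i (y (word w)) = - y (word w) := by
        intro w hw
        obtain ⟨hw, hp⟩ := Finset.mem_filter.1 hw
        rw [hdesc w hw hp, if_pos h1, neg_one_smul]
      rw [Finset.sum_congr rfl e1, Finset.sum_congr rfl e2, Finset.sum_neg_distrib, add_neg_eq_zero]
      refine Finset.sum_nbij' (fun w => S.refl i * w) (fun w => S.refl i * w) (fun w hw => ?_)
        (fun w hw => ?_) (fun w _ => by simp [← mul_assoc, S.refl_mul_self])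
        (fun w _ => by simp [← mul_assoc, S.refl_mul_self]) fun w _ => rfl
      · obtain ⟨hw, hp⟩ := Finset.mem_filter.1 hw
        exact Finset.mem_filter.2 ⟨(hcons w hw).2.1, fun h => (hflip w hw).1 h hp⟩
      · obtain ⟨hw, hp⟩ := Finset.mem_filter.1 hw
        exact Finset.mem_filter.2 ⟨(hcons w hw).2.1, (hflip w hw).2 hp⟩
    | some χ =>
      have hiJ : i ∉ J := fun h => by
        have : ω i = none := h
        rw [hω] at this
        simp at this
      refine Finset.sum_congr rfl fun w hw => ?_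
      have hneg : ¬S.Pos ((S.wprod (word w ++ S.L0))⁻¹ (S.sr i)) := by
        rw [wprod_append, _root_.mul_inv_rev, Equiv.Perm.mul_apply]
        exact S.L0_inv_neg (S.pos_JWord_inv (hword w hw).1 hiJ)
      rw [hdesc w hw hneg, hω]
      simp only [wev, wchi]
      split_ifs <;> simp_all

/-- Every weight is the weight of an irreducible representation. -/
theorem exists_irreducible_wt (hk : (Fintype.card F : k) = 0)
    (hH : Nat.card (D.diagonalSubgroup F) = (Fintype.card F - 1) ^ D.rank) (ω : S.Wgt F k) :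
    ∃ (n : ℕ) (σ : Representation k (D.group F) (Fin n → k)) (x : Fin n → k),
      σ.IsIrreducible ∧ S.HasWt σ x ω := by
  classical
  haveI := finite_GL (D := D) (F := F)
  haveI : Finite (D.group F) := Subtype.finite
  haveI := Fintype.ofFinite (D.group F)
  obtain ⟨v, hv⟩ := S.exists_wt_regular (k := k) hk hH ω
  set ρ := regRep k (D.group F)
  set W0 := Submodule.span k (Set.range fun g : D.group F => ρ g v) with hW0
  have hW0inv : ∀ g, W0 ≤ W0.comap (ρ g) := fun g => by
    rw [hW0, Submodule.span_le]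
    rintro _ ⟨h, rfl⟩
    exact Submodule.subset_span ⟨g * h, rep_mul_apply ρ g h v⟩
  have hvW : v ∈ W0 := Submodule.subset_span ⟨1, by simp⟩
  let τ : Representation k (D.group F) W0 :=
    { toFun := fun g => (ρ g).restrict (hW0inv g)
      map_one' := LinearMap.ext fun x => Subtype.ext (by simp)
      map_mul' := fun g h => LinearMap.ext fun x => Subtype.ext (by simp) }
  have hτ : S.HasWt τ (⟨v, hvW⟩ : W0) ω :=
    ⟨fun e => hv.1 (congrArg Subtype.val e), fun u hu => Subtype.ext (hv.2.1 u hu),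
      fun i a => Subtype.ext (hv.2.2.1 i a), fun i => by
        rw [S.Tq_apply]
        refine Subtype.ext ?_
        rw [Submodule.coe_sum]
        exact (S.Tq_apply ρ i v).symm.trans (hv.2.2.2 i)⟩
  obtain ⟨M, ⟨hMinv, hMv⟩, hMmax⟩ :=
    (set_has_maximal_iff_noetherian (R := k) (M := W0)).2 inferInstance
      {M : Submodule k W0 | (∀ g, M ≤ M.comap (τ g)) ∧ (⟨v, hvW⟩ : W0) ∉ M}
      ⟨⊥, fun g => bot_le, fun h => hτ.1 (Submodule.mem_bot k |>.1 h)⟩
  let θ : Representation k (D.group F) (W0 ⧸ M) :=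
    { toFun := fun g => M.mapQ M (τ g) (hMinv g)
      map_one' := by ext; simp
      map_mul' := fun g h => by ext; simp }
  have hθ : S.HasWt θ (M.mkQ ⟨v, hvW⟩) ω := hτ.map (σ := θ) M.mkQ (fun g x => rfl) (by
    rw [Submodule.mkQ_apply, ne_eq, Submodule.Quotient.mk_eq_zero]; exact hMv)
  have hirr : ∀ X : Submodule k (W0 ⧸ M), (∀ g, X ≤ X.comap (θ g)) → X = ⊥ ∨ X = ⊤ := by
    intro X hX
    set Y := X.comap M.mkQ
    have hMY : M ≤ Y := Submodule.le_comap_mkQ M X
    have hYinv : ∀ g, Y ≤ Y.comap (τ g) := fun g x hx => hX g hx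
    by_cases hvY : (⟨v, hvW⟩ : W0) ∈ Y
    · right
      have hYtop : Y = ⊤ := by
        refine eq_top_iff.2 fun x _ => ?_
        have h1 : W0 ≤ Y.map W0.subtype := by
          refine Submodule.span_le.2 ?_
          rintro _ ⟨g, rfl⟩
          exact ⟨τ g ⟨v, hvW⟩, hYinv g hvY, rfl⟩
        obtain ⟨z, hz, hzx⟩ := h1 x.2
        rwa [← Subtype.ext hzx]
      rw [← Submodule.map_comap_eq_of_surjective M.mkQ_surjective X]
      show Y.map M.mkQ = ⊤
      rw [hYtop, Submodule.map_top, Submodule.range_mkQ]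
    · left
      have hYM : Y = M := (hMY.eq_of_not_lt (hMmax Y ⟨hYinv, hvY⟩)).symm
      rw [← Submodule.map_comap_eq_of_surjective M.mkQ_surjective X]
      show Y.map M.mkQ = ⊥
      rw [hYM, ← le_bot_iff, Submodule.map_le_iff_le_comap]
      intro x hx
      simpa using (Submodule.Quotient.mk_eq_zero M).2 hx
  set e := (Module.finBasis k (W0 ⧸ M)).equivFun with he
  let σ : Representation k (D.group F) (Fin (Module.finrank k (W0 ⧸ M)) → k) :=
    { toFun := fun g => e.conj (θ g)
      map_one' := by simp [LinearEquiv.conj_id, Module.End.one_eq_id]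
      map_mul' := fun g h => by rw [map_mul, Module.End.mul_eq_comp, LinearEquiv.conj_comp]; rfl }
  refine ⟨_, σ, e (M.mkQ ⟨v, hvW⟩), ?_,
    hθ.map (σ := σ) e.toLinearMap (fun g x => by simp [σ, LinearEquiv.conj_apply_apply])
      (fun h => hθ.1 (e.map_eq_zero_iff.1 h))⟩
  haveI : Nontrivial (Subrepresentation σ) := by
    refine ⟨⟨⟨⊥, fun g x hx => by simp at hx; simp [hx]⟩, ⟨⊤, fun _ _ _ => trivial⟩, fun h => ?_⟩⟩
    have h' : (⊥ : Submodule k (Fin (Module.finrank k (W0 ⧸ M)) → k)) = ⊤ :=
      congrArg (fun R : Subrepresentation σ => R.toSubmodule) h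
    have h2 : e (M.mkQ ⟨v, hvW⟩) ∈ (⊥ : Submodule k _) := h' ▸ Submodule.mem_top
    exact hθ.1 (e.map_eq_zero_iff.1 ((Submodule.mem_bot k).1 h2))
  refine ⟨fun R => ?_⟩
  rcases hirr (R.toSubmodule.comap (e : (W0 ⧸ M) →ₗ[k] Fin (Module.finrank k (W0 ⧸ M)) → k)) (fun g x hx => by
    have := R.apply_mem_toSubmodule g hx
    simpa [σ, LinearEquiv.conj_apply_apply] using this) with h | h
  · left
    refine Subrepresentation.toSubmodule_injective (show R.toSubmodule = ⊥ from ?_)
    rw [← Submodule.map_comap_eq_of_surjective e.surjective R.toSubmodule, h, Submodule.map_bot]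
  · right
    refine Subrepresentation.toSubmodule_injective (show R.toSubmodule = ⊤ from ?_)
    rw [← Submodule.map_comap_eq_of_surjective e.surjective R.toSubmodule, h, Submodule.map_top,
      LinearEquiv.range]

end CfsgLib.Chev.Sys
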