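import Cfsg.Agent.Chev.CurtisRichen.Simple

/-!
# Words in a set `J` of fundamental roots

Two such words with the same Weyl element give monomial elements differing by the torus `H_J`
generated by the cocharacters in `J`, and `H_J` contains all commutators of these words with `H`.
-/

set_option autoImplicit false
set_option linter.unusedSectionVars false
set_option linter.unusedDecidableInType false

namespace CfsgLib.Chev.Sys

open Cfsg Cfsg.Lie

universe u

variable {D : ChevalleyDatum} (S : Sys.{u} D) {F : Type u} [Field F] {J : Set (Fin D.rank)}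

/-- All letters lie in `J`. -/
def JWord (_S : Sys.{u} D) (J : Set (Fin D.rank)) (Q : List ℕ) : Prop := ∀ q ∈ Q, ∃ i ∈ J, (i : ℕ) = q

theorem JWord.lt {S : Sys.{u} D} {Q : List ℕ} (h : S.JWord J Q) : ∀ q ∈ Q, q < D.rank := fun q hq => by
  obtain ⟨i, -, rfl⟩ := h q hq
  exact i.2

theorem JWord.reverse {S : Sys.{u} D} {Q : List ℕ} (h : S.JWord J Q) : S.JWord J Q.reverse :=
  fun q hq => h q (List.mem_reverse.1 hq)

theorem JWord.append {S : Sys.{u} D} {Q R : List ℕ} (h : S.JWord J Q) (h' : S.JWord J R) :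
    S.JWord J (Q ++ R) :=
  fun q hq => (List.mem_append.1 hq).elim (h q) (h' q)

/-- The torus of `J`. -/
def HJ (F : Type u) [Field F] (J : Set (Fin D.rank)) : Subgroup (D.group F) :=
  Subgroup.closure {g | ∃ i ∈ J, ∃ a : Fˣ, g = S.etaG F i i.2 a}

theorem eta_mem_HJ {i : Fin D.rank} (hi : i ∈ J) (a : Fˣ) : S.etaG F i i.2 a ∈ S.HJ F J :=
  Subgroup.subset_closure ⟨i, hi, a, rfl⟩

theorem HJ_le : S.HJ F J ≤ HG F S := by
  rw [HJ, Subgroup.closure_le]
  rintro _ ⟨i, -, a, rfl⟩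
  exact S.etaG_mem i.2 a

theorem nG_conj_eta {q : ℕ} (hq : q < D.rank) (j : Fin D.rank) (a : Fˣ) :
    S.nG F q * S.etaG F j j.2 a * (S.nG F q)⁻¹ =
      S.etaG F j j.2 a * S.etaG F q hq (a ^ (-D.cartan j (D.simple q))) := by
  refine Subtype.ext ?_
  push_cast
  show S.nU (D.simple q) 1 * S.dg (hz D (D.simple j) a) * (S.nU (D.simple q) 1)⁻¹ =
    S.dg (hz D (D.simple j) a) * S.dg (hz D (D.simple q) (a ^ (-D.cartan j (D.simple q))))
  rw [S.nU_dg hq, mul_inv_cancel_right, ← S.dg_mul]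
  refine S.dg_congr fun i hi => ?_
  rw [S.tw_hz hq (S.simple_lt j.2) a hi, Pi.mul_apply]
  show a ^ cr D (S.pi q (D.simple j)) i =
    a ^ cr D (D.simple j) i * (a ^ (-D.cartan j (D.simple q))) ^ cr D (D.simple q) i
  rw [← _root_.zpow_mul, ← _root_.zpow_add]
  congr 1
  have hm : ∑ k ∈ Finset.range D.rank, cor D (D.simple j) k * D.cartan k (D.simple q) =
      D.cartan j (D.simple q) := S.cr_simple j.2 q
  have hs : cr D (D.simple q) i = D.cartan q (D.simple i) := S.cr_simple hq i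
  rw [hs, cr, cr, Finset.sum_congr rfl fun k hk => by
    rw [S.cor_pi q hq _ (S.simple_lt j.2) k (Finset.mem_range.1 hk), hm, sub_mul]]
  rw [Finset.sum_sub_distrib]
  simp [ite_mul, Finset.sum_ite_eq', hq]
  ring

theorem nG_conj_HJ {i : Fin D.rank} (hi : i ∈ J) {x : D.group F} (hx : x ∈ S.HJ F J) :
    S.nG F i * x * (S.nG F i)⁻¹ ∈ S.HJ F J := by
  have : S.HJ F J ≤ (S.HJ F J).comap (MulAut.conj (S.nG F i)).toMonoidHom := by
    rw [HJ, Subgroup.closure_le]
    rintro _ ⟨j, hj, a, rfl⟩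
    show S.nG F i * S.etaG F j j.2 a * (S.nG F i)⁻¹ ∈ S.HJ F J
    rw [S.nG_conj_eta i.2]
    exact mul_mem (S.eta_mem_HJ hj a) (S.eta_mem_HJ hi _)
  exact this hx

theorem nL_conj_HJ {Q : List ℕ} (hQ : S.JWord J Q) {x : D.group F} (hx : x ∈ S.HJ F J) :
    S.nL F Q * x * (S.nL F Q)⁻¹ ∈ S.HJ F J := by
  induction Q with
  | nil => simpa [nL] using hx
  | cons q Q ih =>
    obtain ⟨i, hi, e⟩ := hQ q (by simp)
    have := S.nG_conj_HJ hi (ih fun r hr => hQ r (by simp [hr]))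
    rw [e] at this
    rw [S.nL_cons]
    rwa [show S.nG F q * S.nL F Q * x * (S.nG F q * S.nL F Q)⁻¹ =
      S.nG F q * (S.nL F Q * x * (S.nL F Q)⁻¹) * (S.nG F q)⁻¹ by group]

/-- `n_i` centralises `H` modulo `H_J`. -/
theorem nG_comm_HG {i : Fin D.rank} (hi : i ∈ J) {h : D.group F} (hh : h ∈ HG F S) :
    S.nG F i * h * (S.nG F i)⁻¹ * h⁻¹ ∈ S.HJ F J := by
  let n := S.nG F i
  let K : Subgroup (D.group F) :=
    { carrier := {g | g ∈ HG F S ∧ n * g * n⁻¹ * g⁻¹ ∈ S.HJ F J}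
      one_mem' := ⟨one_mem _, by simp⟩
      mul_mem' := fun {a b} ha hb => ⟨mul_mem ha.1 hb.1, by
        have hc : n * b * n⁻¹ * b⁻¹ * a⁻¹ = a⁻¹ * (n * b * n⁻¹ * b⁻¹) :=
          S.HG_comm (S.HJ_le hb.2) (inv_mem ha.1)
        rw [show n * (a * b) * n⁻¹ * (a * b)⁻¹ = n * a * n⁻¹ * (n * b * n⁻¹ * b⁻¹ * a⁻¹) by group, hc,
          ← mul_assoc]
        exact mul_mem ha.2 hb.2⟩
      inv_mem' := fun {a} ha => ⟨inv_mem ha.1, by
        have hna : n * a⁻¹ * n⁻¹ ∈ HG F S := by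
          have := mul_mem (S.HJ_le (inv_mem ha.2)) (inv_mem ha.1)
          rw [show n * a⁻¹ * n⁻¹ = a⁻¹ * (n * a * n⁻¹ * a⁻¹)⁻¹ by group,
            S.HG_comm (inv_mem ha.1) (inv_mem (S.HJ_le ha.2))]
          exact this
        rw [inv_inv, S.HG_comm hna ha.1, show a * (n * a⁻¹ * n⁻¹) = (n * a * n⁻¹ * a⁻¹)⁻¹ by group]
        exact inv_mem ha.2⟩ }
  refine (S.diag_le_of_eta K (fun j a => ⟨S.etaG_mem j.2 a, ?_⟩) hh).2
  show n * S.etaG F j j.2 a * n⁻¹ * (S.etaG F j j.2 a)⁻¹ ∈ S.HJ F J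
  rw [S.nG_conj_eta i.2, S.HG_comm (S.etaG_mem j.2 a) (S.etaG_mem i.2 _), mul_inv_cancel_right]
  exact S.eta_mem_HJ hi _

theorem nL_comm_HG {Q : List ℕ} (hQ : S.JWord J Q) : ∀ {h : D.group F}, h ∈ HG F S →
    (S.nL F Q)⁻¹ * h * S.nL F Q * h⁻¹ ∈ S.HJ F J := by
  induction Q with
  | nil => intro h _; simp [nL]
  | cons q Q ih =>
    intro h hh
    obtain ⟨i, hi, rfl⟩ := hQ q (by simp)
    set h' := (S.nG F i)⁻¹ * h * S.nG F i
    have hh' : h' ∈ HG F S := S.nG_conj_HG i.2 hh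
    have h1 := inv_mem (S.nG_comm_HG hi hh')
    rw [show (S.nG F i * h' * (S.nG F i)⁻¹ * h'⁻¹)⁻¹ = h' * h⁻¹ by simp [h', mul_assoc]] at h1
    have h2 := mul_mem (ih (fun r hr => hQ r (by simp [hr])) hh') h1
    rw [S.nL_cons, show (S.nG F i * S.nL F Q)⁻¹ * h * (S.nG F i * S.nL F Q) * h⁻¹ =
      (S.nL F Q)⁻¹ * h' * S.nL F Q * h'⁻¹ * (h' * h⁻¹) by simp [h', mul_assoc]]
    exact h2

/-- Deletion with the letters. -/
theorem exists_del_split {P : List ℕ} (hP : ∀ x ∈ P, x < D.rank) {a : Fin D.rank}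
    (h : ¬S.Pos (S.wprod P (S.sr a))) :
    ∃ (A : List ℕ) (b : Fin D.rank) (C : List ℕ), P = A ++ (b : ℕ) :: C ∧ S.wprod C (S.sr a) = S.sr b := by
  induction P with
  | nil => exact absurd (S.sr_pos a) h
  | cons c M ih =>
    by_cases hM : S.Pos (S.wprod M (S.sr a))
    · rw [wprod_cons, Equiv.Perm.mul_apply] at h
      exact ⟨[], ⟨c, hP c (by simp)⟩, M, rfl, S.eq_sr_of_refl_neg ⟨c, hP c (by simp)⟩ hM h⟩
    · obtain ⟨A, b, C, rfl, e⟩ := ih (fun x hx => hP x (by simp [hx])) hM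
      exact ⟨c :: A, b, C, rfl, e⟩

/-- A word longer than its Weyl element has a descent. -/
theorem exists_desc_split {Q : List ℕ} (hQ : ∀ x ∈ Q, x < D.rank) (h : wlen (S.wprod Q) ≠ Q.length) :
    ∃ (P : List ℕ) (a : Fin D.rank) (R : List ℕ), Q = P ++ (a : ℕ) :: R ∧ ¬S.Pos (S.wprod P (S.sr a)) := by
  induction Q using List.reverseRecOn with
  | nil => exact absurd (by simp [S.wlen_one]) h
  | append_singleton M c ih =>
    have hc : c < D.rank := hQ c (by simp)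
    by_cases hp : S.Pos (S.wprod M (S.sr ⟨c, hc⟩))
    · have h1 := S.wlen_mul_refl_of_pos (S.wprod_mem_weyl M) (i := ⟨c, hc⟩) hp
      have hM : wlen (S.wprod M) ≠ M.length := fun e => h (by
        rw [wprod_append, show S.wprod [c] = S.refl c by simp [wprod], List.length_append,
          List.length_singleton, ← e]
        exact h1)
      obtain ⟨P, a, R, rfl, e⟩ := ih (fun x hx => hQ x (by simp [hx])) hM
      exact ⟨P, a, R ++ [c], by simp, e⟩
    · exact ⟨M, ⟨c, hc⟩, [], by simp, hp⟩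

theorem nw_conj_nU {C : List ℕ} (hC : ∀ q ∈ C, q < D.rank) (s : Fin D.nroots) :
    ∃ e : Fˣ, S.nw F C * S.nU (s : ℕ) 1 * (S.nw F C)⁻¹ = S.nU (S.wprod C s : ℕ) (e : F) := by
  induction C with
  | nil => exact ⟨1, by simp⟩
  | cons q C ih =>
    obtain ⟨e, he⟩ := ih fun x hx => hC x (by simp [hx])
    have hq := hC q (by simp)
    have hη : (S.eta q (S.wprod C s) : F) * (e : F) ≠ 0 := by
      rcases S.eta_unit q hq _ (S.wprod C s).2 with h | h <;> simp [h]
    refine ⟨Units.mk0 _ hη, ?_⟩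
    rw [nw_cons, wprod_cons, Equiv.Perm.mul_apply, S.refl_apply hq, Units.val_mk0,
      ← S.nU_conj_nU hq (S.wprod C s).2, ← he]
    group

/-- A word of trivial Weyl element lies in `H_J`. -/
theorem nL_mem_HJ : ∀ Q : List ℕ, S.JWord J Q → S.wprod Q = 1 → S.nL F Q ∈ S.HJ F J := by
  intro Q
  induction hn : Q.length using Nat.strong_induction_on generalizing Q with
  | _ n ih =>
  subst hn
  intro hJ h1
  rcases eq_or_ne Q [] with rfl | hne
  · simp [nL]
  obtain ⟨P, a, R, rfl, hneg⟩ := S.exists_desc_split hJ.lt (by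
    rw [h1, S.wlen_one]
    exact fun e => hne (List.length_eq_zero_iff.1 e.symm))
  obtain ⟨A, b, C, rfl, hb⟩ := S.exists_del_split (fun x hx => hJ.lt x (by simp [hx])) hneg
  have hJA : S.JWord J A := fun q hq => hJ q (by simp [hq])
  have hJC : S.JWord J C := fun q hq => hJ q (by simp [hq])
  have hJR : S.JWord J R := fun q hq => hJ q (by simp [hq])
  have hbJ : b ∈ J := by
    obtain ⟨i, hi, e⟩ := hJ (b : ℕ) (by simp)
    rwa [← Fin.ext e]
  have hCa : S.wprod C * S.refl a = S.refl b * S.wprod C := S.conj_refl hb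
  have hw : S.wprod (A ++ C ++ R) = 1 := by
    rw [← h1]
    simp only [wprod_append, wprod_cons, mul_assoc]
    rw [← mul_assoc (S.wprod C) (S.refl a), hCa]
    simp only [← mul_assoc]
    simp [mul_assoc, ← mul_assoc (S.refl b) (S.refl b), S.refl_mul_self]
  have hrec := ih (A ++ C ++ R).length (by simp only [List.length_append, List.length_cons]; omega) (A ++ C ++ R) rfl ((hJA.append hJC).append hJR) hw
  obtain ⟨e, he⟩ := S.nw_conj_nU (F := F) hJC.lt (S.sr a)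
  rw [hb] at he
  have hg : S.nL F C * S.nG F a = S.etaG F b b.2 e * S.nG F b * S.nL F C := by
    refine Subtype.ext ?_
    push_cast
    rw [coe_nL, coe_nG, coe_nG]
    show S.nw F C * S.nU (D.simple a) 1 = S.dg (hz D (D.simple b) e) * S.nU (D.simple b) 1 * S.nw F C
    rw [← S.nU_simple b.2, ← mul_inv_eq_iff_eq_mul]
    exact he
  have key : S.nL F (A ++ (b : ℕ) :: C ++ (a : ℕ) :: R) =
      S.nL F A * (S.etaG F b b.2 e⁻¹ * S.etaG F b b.2 (-1)) * (S.nL F A)⁻¹ * S.nL F (A ++ C ++ R) := by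
    simp only [S.nL_append, S.nL_cons, mul_assoc, inv_mul_cancel_left]
    rw [← mul_assoc (S.nL F C) (S.nG F a), hg]
    simp only [← mul_assoc]
    rw [mul_assoc (S.nL F A) (S.nG F b), S.nG_swap b.2, ← mul_assoc (S.nL F A),
      mul_assoc _ (S.nG F b) (S.nG F b), S.nG_sq b.2]
  rw [key]
  exact mul_mem (S.nL_conj_HJ hJA (mul_mem (S.eta_mem_HJ hbJ _) (S.eta_mem_HJ hbJ _))) hrec

theorem nL_eq_mul_HJ {Q Q' : List ℕ} (hQ : S.JWord J Q) (hQ' : S.JWord J Q')
    (h : S.wprod Q = S.wprod Q') : ∃ x ∈ S.HJ F J, S.nL F Q = S.nL F Q' * x := by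
  have h1 : S.wprod (Q'.reverse ++ Q) = 1 := by rw [wprod_append, ← wprod_inv, h, inv_mul_cancel]
  have h2 : S.wprod (Q'.reverse ++ Q') = 1 := by rw [wprod_append, ← wprod_inv, inv_mul_cancel]
  refine ⟨_, mul_mem (inv_mem (S.nL_mem_HJ _ (hQ'.reverse.append hQ') h2))
    (S.nL_mem_HJ (F := F) _ (hQ'.reverse.append hQ) h1), ?_⟩
  rw [S.nL_append, S.nL_append]
  group

theorem coeff_fix_JWord {Q : List ℕ} (hQ : S.JWord J Q) {i : Fin D.rank} (hi : i ∉ J) (s : Fin D.nroots) :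
    S.rv (S.wprod Q s) i = S.rv s i := by
  induction Q generalizing s with
  | nil => rfl
  | cons b M ih =>
    obtain ⟨j, hj, rfl⟩ := hQ b (by simp)
    rw [wprod_cons, Equiv.Perm.mul_apply, rv_refl, Rl_apply S j.2, Fin.eta, Pi.sub_apply, Pi.smul_apply,
      Pi.single_apply, if_neg (fun e => hi (by rw [e]; exact hj)), smul_zero, sub_zero,
      ih fun q hq => hQ q (by simp [hq])]

theorem pos_JWord_inv {Q : List ℕ} (hQ : S.JWord J Q) {i : Fin D.rank} (hi : i ∉ J) :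
    S.Pos ((S.wprod Q)⁻¹ (S.sr i)) := by
  by_contra h
  have h1 := S.rv_nonpos h i
  rw [wprod_inv, S.coeff_fix_JWord hQ.reverse hi, rv_sr, Pi.single_eq_same] at h1
  omega

end CfsgLib.Chev.Sys
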