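import Cfsg.Agent.Chev.UniqueSt.Main

/-!
# The operators of the fundamental reflections on the fixed vectors of `U`

For a representation `ρ` of a Chevalley group over a field in which `q = 0`, a vector fixed by `U`
on which the diagonal subgroup acts by scalars is moved by `T_i = ∑_t ρ(x_i(t) n_i)` to another one,
and `T_i` composes with the cell sums `S_L = ∑_{u ∈ U_w^-} ρ(u n_L)` according to the length.
-/

set_option autoImplicit false
set_option linter.unusedSectionVars false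
set_option linter.unusedDecidableInType false

namespace CfsgLib.Chev.Sys

open Cfsg Cfsg.Lie

universe u v w

section
variable {D : ChevalleyDatum} (S : Sys.{u} D)

/-- Exactly one of `w` and `w s_i` makes `p_i` negative. -/
theorem pos_mul_refl {w : Equiv.Perm (Fin D.nroots)} (hw : w ∈ S.weyl) (i : Fin D.rank) :
    S.Pos ((w * S.refl i) (S.sr i)) ↔ ¬S.Pos (w (S.sr i)) := by
  have hws := mul_mem hw (S.refl_mem_weyl i)
  have hss : w * S.refl i * S.refl i = w := by rw [mul_assoc, S.refl_mul_self, mul_one]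
  constructor
  · intro h h'
    have h1 := S.wlen_mul_refl_of_pos hw h'
    have h2 := S.wlen_mul_refl_of_pos hws h
    rw [hss] at h2
    omega
  · intro h'
    by_contra h
    have h1 := S.wlen_mul_refl_of_neg hw h'
    have h2 := S.wlen_mul_refl_of_neg hws h
    rw [hss] at h2
    omega

theorem flipsNeg_iff_not_pos {w : Equiv.Perm (Fin D.nroots)} {r : ℕ} (hr : r < D.nroots) :
    FlipsNeg w r ↔ ¬S.Pos (w ⟨r, hr⟩) :=
  ⟨fun ⟨_, h⟩ => not_le.2 h, fun h => ⟨hr, not_le.1 h⟩⟩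

theorem wprod_cons_inv (q : ℕ) (L : List ℕ) :
    (S.wprod (q :: L))⁻¹ = (S.wprod L)⁻¹ * S.refl q := by
  rw [wprod_cons, _root_.mul_inv_rev, refl_inv]

variable {F : Type u} [Field F]

theorem nL_cons (q : ℕ) (L : List ℕ) : S.nL F (q :: L) = S.nG F q * S.nL F L := by
  simp [nL]

theorem nL_append (L M : List ℕ) : S.nL F (L ++ M) = S.nL F L * S.nL F M := by
  simp [nL]

/-- The diagonal subgroup inside the group. -/
abbrev HG (F : Type u) [Field F] (_S : Sys.{u} D) : Subgroup (D.group F) :=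
  (D.diagonalSubgroup F).subgroupOf (D.group F)

theorem etaG_mem {q : ℕ} (hq : q < D.rank) (a : Fˣ) : S.etaG F q hq a ∈ HG F S :=
  Subgroup.mem_subgroupOf.2 (S.dg_mem_diag (S.simple_lt hq) a)

theorem diag_le_of_eta (K : Subgroup (D.group F))
    (hK : ∀ (j : Fin D.rank) (a : Fˣ), S.etaG F j j.2 a ∈ K) : HG F S ≤ K := by
  intro h hh
  suffices hle : D.diagonalSubgroup F ≤ K.map (D.group F).subtype by
    obtain ⟨k, hk, e⟩ := Subgroup.mem_map.1 (hle (Subgroup.mem_subgroupOf.1 hh))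
    rw [← Subtype.ext e]
    exact hk
  rw [S.diagonalSubgroup_eq]
  rintro g ⟨c, rfl⟩
  suffices hle : (⊤ : Subgroup (Fin D.rank → Fˣ)) ≤
      (K.map (D.group F).subtype).comap (S.dgHom.comp (torHom D)) from hle (Subgroup.mem_top c)
  rw [show (⊤ : Subgroup (Fin D.rank → Fˣ)) = Subgroup.pi Set.univ (fun _ => ⊤) by
    ext x; simp [Subgroup.mem_pi], Subgroup.pi_le_iff]
  rintro j _ ⟨d, -, rfl⟩
  refine Subgroup.mem_comap.2 (Subgroup.mem_map.2 ⟨S.etaG F j j.2 d, hK j d, ?_⟩)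
  show S.dg (hz D (D.simple j) d) = _
  refine S.dg_congr fun i _ => ?_
  show _ = ∏ k : Fin D.rank, (Pi.mulSingle j d : Fin D.rank → Fˣ) k ^ _
  rw [Finset.prod_eq_single_of_mem j (Finset.mem_univ _)]
  · rw [Pi.mulSingle_eq_same, hz, S.cr_simple j.2]
  · intro k _ hk; rw [Pi.mulSingle_eq_of_ne hk, _root_.one_zpow]

theorem HG_comm {a b : D.group F} (ha : a ∈ HG F S) (hb : b ∈ HG F S) : a * b = b * a := by
  obtain ⟨z, hz⟩ := S.exists_dg (Subgroup.mem_subgroupOf.1 ha)
  obtain ⟨z', hz'⟩ := S.exists_dg (Subgroup.mem_subgroupOf.1 hb)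
  refine Subtype.ext ?_
  push_cast
  rw [hz, hz', ← S.dg_mul, ← S.dg_mul, mul_comm z z']

theorem nG_swap {q : ℕ} (hq : q < D.rank) (a : Fˣ) :
    S.nG F q * S.etaG F q hq a = S.etaG F q hq a⁻¹ * S.nG F q := Subtype.ext (by
  show S.nU (D.simple q) 1 * S.dg (hz D (D.simple q) a) =
    S.dg (hz D (D.simple q) a⁻¹) * S.nU (D.simple q) 1
  rw [S.nU_dg hq, ← S.neg_simple_hz hq a]
  congr 1
  refine S.dg_congr fun i hi => ?_
  rw [S.tw_hz hq (S.simple_lt hq) a hi, S.pi_simple q hq])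

theorem nG_sq {q : ℕ} (hq : q < D.rank) : S.nG F q * S.nG F q = S.etaG F q hq (-1) :=
  Subtype.ext (S.nU_sq hq)

theorem nG_conj_HG {q : ℕ} (hq : q < D.rank) {h : D.group F} (hh : h ∈ HG F S) :
    (S.nG F q)⁻¹ * h * S.nG F q ∈ HG F S := by
  rw [Subgroup.mem_subgroupOf] at hh ⊢
  push_cast
  rw [coe_nG]
  have := S.mono_conj_diag (inv_mem (S.nU_simple_mem_mono (F := F) hq)) hh
  rwa [inv_inv] at this

theorem nL_conj_HG {L : List ℕ} (hL : ∀ x ∈ L, x < D.rank) {h : D.group F} (hh : h ∈ HG F S) :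
    (S.nL F L)⁻¹ * h * S.nL F L ∈ HG F S := by
  rw [Subgroup.mem_subgroupOf] at hh ⊢
  push_cast
  rw [coe_nL]
  have := S.mono_conj_diag (inv_mem (S.nw_mem_mono (F := F) hL)) hh
  rwa [inv_inv] at this

end

variable {D : ChevalleyDatum} (S : Sys.{u} D) {F : Type u} [Field F]
variable {k : Type v} [Field k] {V : Type w} [AddCommGroup V] [Module k V]
variable (ρ : Representation k (D.group F) V)

theorem rep_mul_apply (g h : D.group F) (x : V) : ρ (g * h) x = ρ g (ρ h x) := by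
  rw [map_mul]; rfl

/-- Fixed by `U`. -/
def UFix (v : V) : Prop := ∀ u ∈ UG F S, ρ u v = v

/-- Fixed by `U`, scaled by the diagonal subgroup. -/
def Eig (v : V) : Prop := S.UFix ρ v ∧ ∀ h ∈ HG F S, ∃ c : k, ρ h v = c • v

variable {S ρ}

theorem Eig.smul {v : V} (hv : S.Eig ρ v) (c : k) : S.Eig ρ (c • v) :=
  ⟨fun u hu => by rw [map_smul, hv.1 u hu], fun h hh => by
    obtain ⟨a, ha⟩ := hv.2 h hh
    exact ⟨a, by rw [map_smul, ha, smul_comm]⟩⟩

theorem scalar_ne_zero {v : V} (hv : v ≠ 0) {h : D.group F} {c : k} (e : ρ h v = c • v) : c ≠ 0 := by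
  rintro rfl
  apply hv
  rw [zero_smul] at e
  rw [← Representation.inv_self_apply ρ h v, e, map_zero]

variable (S ρ)

/-- The scalars by which a one-parameter subgroup acts form a character. -/
theorem exists_char {M : Type*} [Group M] (φ : M →* D.group F) {v : V} (hv : v ≠ 0)
    (h : ∀ a, ∃ c : k, ρ (φ a) v = c • v) : ∃ χ : M →* kˣ, ∀ a, ρ (φ a) v = (χ a : k) • v := by
  choose c hc using h
  refine ⟨MonoidHom.mk' (fun a => Units.mk0 (c a) (scalar_ne_zero hv (hc a))) fun a b => Units.ext ?_,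
    fun a => hc a⟩
  show c (a * b) = c a * c b
  have e := hc (a * b)
  rw [map_mul, rep_mul_apply, hc b, map_smul, hc a, smul_smul, mul_comm] at e
  exact (smul_left_injective k hv e).symm

variable [Fintype F]

/-- `T_i = ∑_t x_i(t) n_i`. -/
noncomputable def Tq (q : ℕ) : Module.End k V := ∑ t : F, ρ (S.xSG F q t * S.nG F q)

theorem Tq_apply (q : ℕ) (v : V) : S.Tq ρ q v = ∑ t : F, ρ (S.xSG F q t * S.nG F q) v := by
  simp [Tq, LinearMap.sum_apply]

theorem xSG_mul (q : ℕ) (s t : F) : S.xSG F q s * S.xSG F q t = S.xSG F q (s + t) :=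
  Subtype.ext (S.xU_add _ _ _)

theorem Tq_eig {q : ℕ} (hq : q < D.rank) {v : V} (hv : S.Eig ρ v) : S.Eig ρ (S.Tq ρ q v) := by
  refine ⟨fun u hu => ?_, fun h hh => ?_⟩
  · rw [S.Tq_apply, map_sum]
    obtain ⟨a, ha, s, e⟩ := S.exists_up_split hq (Subgroup.mem_subgroupOf.1 hu)
    refine Fintype.sum_equiv (Equiv.addLeft s) _ _ fun t => ?_
    let x : GL D.Idx F := S.xU (D.simple q) (s + t)
    have h1 : x⁻¹ * a * x ∈ S.upSub F q := by
      have := S.xU_conj_upSub hq (-(s + t)) ha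
      rwa [← S.xU_inv, inv_inv] at this
    have h2 : (S.nU (D.simple q) (1 : F))⁻¹ * (x⁻¹ * a * x) * S.nU (D.simple q) 1 ∈ D.posUnipotent F :=
      S.genBy_le_pos _ (S.nU_conj_upSub_inv hq h1)
    rw [← rep_mul_apply, Equiv.coe_addLeft,
      show u * (S.xSG F q t * S.nG F q) = S.xSG F q (s + t) * S.nG F q * ⟨_, S.pos_le_group h2⟩ from
        Subtype.ext (by
          push_cast
          show (u : GL D.Idx F) * (S.xU (D.simple q) t * S.nU (D.simple q) 1) =
            S.xU (D.simple q) (s + t) * S.nU (D.simple q) 1 * _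
          rw [e]
          simp only [x, ← S.xU_add]
          group),
      rep_mul_apply, hv.1 _ (Subgroup.mem_subgroupOf.2 h2)]
  · obtain ⟨c, hc⟩ := hv.2 _ (S.nG_conj_HG hq hh)
    obtain ⟨z, hz⟩ := S.exists_dg (Subgroup.mem_subgroupOf.1 hh)
    refine ⟨c, ?_⟩
    rw [S.Tq_apply, map_sum, Finset.smul_sum]
    refine Fintype.sum_equiv (Equiv.mulLeft₀ ((S.chi z (D.simple q) : Fˣ) : F) (Units.ne_zero _)) _ _
      fun t => ?_
    rw [← rep_mul_apply, Equiv.mulLeft₀_apply]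
    have e : h * (S.xSG F q t * S.nG F q) =
        S.xSG F q ((S.chi z (D.simple q) : F) * t) * S.nG F q * ((S.nG F q)⁻¹ * h * S.nG F q) := by
      refine Subtype.ext ?_
      push_cast
      show (h : GL D.Idx F) * (S.xU (D.simple q) t * S.nU (D.simple q) 1) =
        S.xU (D.simple q) ((S.chi z (D.simple q) : F) * t) * S.nU (D.simple q) 1 *
          ((S.nU (D.simple q) 1)⁻¹ * (h : GL D.Idx F) * S.nU (D.simple q) 1)
      rw [hz, ← S.dg_conj_xU z (S.simple_lt hq)]
      group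
    rw [e, rep_mul_apply, hc, map_smul]

/-- `h_i(a)` is inverted by `T_i`. -/
theorem Tq_eta {q : ℕ} (hq : q < D.rank) {v : V} {χ : Fˣ →* kˣ}
    (hχ : ∀ a, ρ (S.etaG F q hq a) v = (χ a : k) • v) (a : Fˣ) :
    ρ (S.etaG F q hq a) (S.Tq ρ q v) = ((χ a)⁻¹ : kˣ) • S.Tq ρ q v := by
  rw [S.Tq_apply, map_sum, Finset.smul_sum]
  refine Fintype.sum_equiv
    (Equiv.mulLeft₀ ((S.chi (hz D (D.simple q) a) (D.simple q) : Fˣ) : F) (Units.ne_zero _)) _ _
    fun t => ?_
  rw [← rep_mul_apply, Equiv.mulLeft₀_apply]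
  have e : S.etaG F q hq a * (S.xSG F q t * S.nG F q) =
      S.xSG F q ((S.chi (hz D (D.simple q) a) (D.simple q) : F) * t) * S.nG F q *
        S.etaG F q hq a⁻¹ := by
    rw [mul_assoc (S.xSG F q _), S.nG_swap hq, inv_inv, ← mul_assoc, ← mul_assoc]
    congr 1
    exact Subtype.ext (S.dg_xU _ (S.simple_lt hq) t)
  rw [e, rep_mul_apply, hχ, map_smul, map_inv, Units.smul_def]

/-- The quadratic relation. -/
theorem Tq_Tq (hk : (Fintype.card F : k) = 0) {q : ℕ} (hq : q < D.rank) {v : V} (hv : S.UFix ρ v)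
    {χ : Fˣ →* kˣ} (hχ : ∀ a, ρ (S.etaG F q hq a) v = (χ a : k) • v) [Decidable (χ = 1)] :
    S.Tq ρ q (S.Tq ρ q v) = (if χ = 1 then (-1 : k) else 0) • S.Tq ρ q v := by
  classical
  let x := S.xSG F q
  let n := S.nG F q
  have hfix : ∀ c : F, ρ (x c) v = v := fun c => hv _ (S.xSG_mem_U hq c)
  -- the inner sum for a non-zero parameter
  have hne : ∀ s : Fˣ, ∑ t : F, ρ (x t * n) (ρ (x (s : F) * n) v) =
      ((χ (-1) : k) * (χ s : k)) • S.Tq ρ q v := by
    intro s
    set c : F := (-(s : F))⁻¹ with hc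
    have hsplit : x 0 * n * (x (s : F) * n) =
        x c * S.etaG F q hq s⁻¹ * n * x c * S.etaG F q hq (-1) := by
      have e : n * x (s : F) * n⁻¹ = x c * (S.etaG F q hq s⁻¹ * n) * x c := Subtype.ext (by
        push_cast
        show S.nU (D.simple q) 1 * S.xU (D.simple q) (s : F) * (S.nU (D.simple q) 1)⁻¹ =
          S.xU (D.simple q) c *
              (S.dg (hz D (D.simple q) s⁻¹) * S.nU (D.simple q) 1) * S.xU (D.simple q) c
        rw [S.nU_conj_xp hq, S.xU_neg_split _ (neg_ne_zero.2 s.ne_zero), ← S.nU_simple hq]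
        congr 3
        rw [inv_neg, _root_.neg_neg, Units.val_inv_eq_inv_val])
      rw [show x 0 = 1 from Subtype.ext (S.xU_zero _), one_mul, ← S.nG_sq hq,
        show n * (x (s : F) * n) = n * x (s : F) * n⁻¹ * (n * n) by group, e]
      simp only [mul_assoc, n]
    rw [S.Tq_apply, Finset.smul_sum]
    refine Fintype.sum_equiv (Equiv.addRight c) _ _ fun t => ?_
    rw [← rep_mul_apply, Equiv.coe_addRight]
    have e2 : x t * n * (x (s : F) * n) =
        x (t + c) * (n * (S.etaG F q hq s * (x c * S.etaG F q hq (-1)))) := by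
      have e3 : x t * n * (x (s : F) * n) = x t * (x 0 * n * (x (s : F) * n)) := by
        rw [show x 0 = 1 from Subtype.ext (S.xU_zero _), one_mul, mul_assoc]
      rw [e3, hsplit, show x (t + c) = x t * x c from (S.xSG_mul q t c).symm, ← mul_assoc n,
        show n * S.etaG F q hq s = S.etaG F q hq s⁻¹ * n from S.nG_swap hq s]
      simp only [mul_assoc, x, n]
    rw [e2, rep_mul_apply, rep_mul_apply, rep_mul_apply, rep_mul_apply, hχ, map_smul, hfix, map_smul,
      hχ, map_smul, map_smul, map_smul, map_smul, rep_mul_apply, smul_smul]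
  have hzero : ∑ t : F, ρ (x t * n) (ρ (x 0 * n) v) = 0 := by
    have : ∀ t : F, ρ (x t * n) (ρ (x 0 * n) v) = (χ (-1) : k) • v := fun t => by
      rw [← rep_mul_apply, show x 0 = 1 from Subtype.ext (S.xU_zero _), one_mul, mul_assoc,
        S.nG_sq hq, rep_mul_apply, hχ, map_smul, hfix]
    rw [Finset.sum_congr rfl fun t _ => this t, Finset.sum_const, Finset.card_univ,
      ← Nat.cast_smul_eq_nsmul k, hk, zero_smul]
  conv_lhs => rw [S.Tq_apply, S.Tq_apply]
  simp only [map_sum]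
  rw [Finset.sum_comm, ← Finset.add_sum_erase _ _ (Finset.mem_univ (0 : F)), hzero, zero_add,
    Finset.sum_bij' (t := (Finset.univ : Finset Fˣ))
      (g := fun s : Fˣ => ((χ (-1) : k) * (χ s : k)) • S.Tq ρ q v)
      (fun s hs => Units.mk0 s (Finset.ne_of_mem_erase hs)) (fun s _ => (s : F))
      (fun _ _ => Finset.mem_univ _) (fun s _ => Finset.mem_erase.2 ⟨s.ne_zero, Finset.mem_univ _⟩)
      (fun _ _ => rfl) (fun _ _ => Units.ext rfl)
      (fun s hs => hne (Units.mk0 s (Finset.ne_of_mem_erase hs))),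
    ← Finset.sum_smul, ← Finset.mul_sum]
  congr 1
  by_cases h1 : χ = 1
  · subst h1
    simp only [MonoidHom.one_apply, Units.val_one, Finset.sum_const, Finset.card_univ, one_mul,
      nsmul_eq_mul, mul_one, if_pos]
    have : ((Fintype.card Fˣ + 1 : ℕ) : k) = 0 := by rw [card_units_succ, hk]
    push_cast at this
    linear_combination this
  · rw [if_neg h1]
    have h0 : ∑ s : Fˣ, ((Units.coeHom k).comp χ) s = 0 :=
      sum_hom_units_eq_zero _ fun h => h1 (MonoidHom.ext fun a => Units.ext (DFunLike.congr_fun h a))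
    rw [show ∑ s : Fˣ, (χ s : k) = 0 from h0, mul_zero]

variable [Fintype (D.group F)]

/-- The cell sum of a word. -/
noncomputable def cellSum (L : List ℕ) : Module.End k V := by
  classical
  exact ∑ u ∈ Finset.univ.filter
    (fun u : D.group F => (u : GL D.Idx F) ∈ S.uminus F (S.wprod L)⁻¹), ρ (u * S.nL F L)

theorem cellSum_eq (L : List ℕ)
    [DecidablePred fun u : D.group F => (u : GL D.Idx F) ∈ S.uminus F (S.wprod L)⁻¹] :
    S.cellSum ρ L = ∑ u ∈ Finset.univ.filter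
      (fun u : D.group F => (u : GL D.Idx F) ∈ S.uminus F (S.wprod L)⁻¹), ρ (u * S.nL F L) := by
  unfold cellSum
  congr 1
  exact Finset.filter_congr_decidable ..

/-- `T_i S_L = S_{iL}` when the length grows. -/
theorem Tq_cellSum_asc {L : List ℕ} (hL : ∀ x ∈ L, x < D.rank) (i : Fin D.rank)
    (hpos : S.Pos ((S.wprod L)⁻¹ (S.sr i))) :
    S.Tq ρ i * S.cellSum ρ L = S.cellSum ρ ((i : ℕ) :: L) := by
  classical
  haveI := finite_GL (D := D) (F := F)
  set w := S.wprod L with hw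
  have hwW : w ∈ S.weyl := S.wprod_mem_weyl L
  have hneg' : ¬S.Pos ((w⁻¹ * S.refl i) (S.sr i)) := fun h => (S.pos_mul_refl (inv_mem hwW) i).1 h hpos
  rw [S.cellSum_eq, S.cellSum_eq, Tq, Finset.sum_mul]
  simp only [Finset.mul_sum, ← map_mul, S.wprod_cons_inv, ← hw]
  rw [← Finset.sum_product']
  set A := Finset.univ.filter (fun u : D.group F => (u : GL D.Idx F) ∈ S.uminus F w⁻¹) with hA
  set B := Finset.univ.filter (fun u : D.group F => (u : GL D.Idx F) ∈ S.uminus F (w⁻¹ * S.refl i)) with hB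
  let n : GL D.Idx F := S.nU (D.simple i) 1
  let f : F × D.group F → D.group F := fun p => S.xSG F i p.1 * (S.nG F i * p.2 * (S.nG F i)⁻¹)
  have hmap : ∀ p ∈ (Finset.univ : Finset F) ×ˢ A, f p ∈ B := by
    rintro ⟨t, u⟩ hp
    rw [Finset.mem_product, hA, Finset.mem_filter] at hp
    rw [hB, Finset.mem_filter]
    refine ⟨Finset.mem_univ _, ?_⟩
    have hx : S.xU (D.simple i) t ∈ S.uminus F (w⁻¹ * S.refl i) :=
      S.xU_mem_genBy (S.simple_pos i i.2).1 (S.simple_lt i.2)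
        ((S.flipsNeg_iff_not_pos (S.simple_lt i.2)).2 hneg') t
    have hle : S.uminus F w⁻¹ ≤ (S.uminus F (w⁻¹ * S.refl i)).comap (MulAut.conj n).toMonoidHom :=
      S.genBy_le fun r h1 h2 h3 v => by
        show n * S.xU r v * n⁻¹ ∈ S.uminus F (w⁻¹ * S.refl i)
        rw [S.nU_conj_xU i.2 h2]
        have hne : r ≠ D.simple i := fun e => by
          subst e
          exact (S.flipsNeg_iff_not_pos h2).1 h3 hpos
        refine S.xU_mem_genBy (S.pi_pos i i.2 r h2 h1 hne) (S.pi_lt i i.2 r h2)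
          ((S.flipsNeg_iff_not_pos (S.pi_lt i i.2 r h2)).2 ?_) _
        rw [Equiv.Perm.mul_apply,
          show S.refl i ⟨S.pi i r, S.pi_lt i i.2 r h2⟩ = ⟨r, h2⟩ from Fin.ext (by
            rw [S.refl_apply i.2]; exact S.pi_pi i i.2 r h2)]
        exact (S.flipsNeg_iff_not_pos h2).1 h3
    simp only [f]
    push_cast
    exact mul_mem hx (hle hp.2.2)
  have hinj : Set.InjOn f ↑((Finset.univ : Finset F) ×ˢ A) := by
    rintro ⟨t, u⟩ hp ⟨t', u'⟩ hp' e
    rw [Finset.mem_coe, Finset.mem_product, hA, Finset.mem_filter] at hp hp'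
    have e' : S.xU (D.simple i) t * (n * (u : GL D.Idx F) * n⁻¹) =
        S.xU (D.simple i) t' * (n * (u' : GL D.Idx F) * n⁻¹) := by
      have := congrArg Subtype.val e
      simpa [f, n, xSG] using this
    set g := (u' : GL D.Idx F) * (u : GL D.Idx F)⁻¹ with hg
    have hgU : g ∈ D.posUnipotent F :=
      S.genBy_le_pos _ (mul_mem hp'.2.2 (inv_mem hp.2.2))
    have hd : S.xU (D.simple i) (t - t') = n * g * n⁻¹ := by
      rw [sub_eq_neg_add, ← S.xU_add, ← S.xU_inv, hg,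
        inv_mul_eq_iff_eq_mul, ← mul_inv_cancel_right (S.xU (D.simple i) t) (n * (u : GL D.Idx F) * n⁻¹), e']
      group
    have hcj : S.xU (D.neg (D.simple i)) (-(t - t')) ∈ D.posUnipotent F := by
      rw [← S.nU_conj_xp i.2, hd]
      have := S.diag_conj_pos (S.nU_sq_mem_diag (F := F) i.2) hgU
      rwa [show S.nU (D.simple i) (1 : F) * (n * g * n⁻¹) * (S.nU (D.simple i) 1)⁻¹ = n * n * g * (n * n)⁻¹ by
        simp only [n]; group]
    have hcn : S.xU (D.neg (D.simple i)) (-(t - t')) ∈ D.negUnipotent F :=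
      Subgroup.subset_closure ⟨_, _, (S.isNeg_iff _).2 (by
        rw [S.neg_eq _ (S.simple_lt i.2)]
        have := (S.simple_pos i i.2).1
        have := S.simple_lt i.2
        have := S.even_nroots
        omega), rfl⟩
    have h0 := Subgroup.mem_inf.2 ⟨hcj, hcn⟩
    rw [S.pos_inf_neg, Subgroup.mem_bot] at h0
    have ht : t = t' := sub_eq_zero.1 (neg_eq_zero.1 (S.xU_pos_eq_zero (S.neg_lt (S.simple_lt i.2)) h0))
    subst ht
    simp only [mul_right_inj, mul_left_inj] at e'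
    rw [Prod.mk.injEq]
    exact ⟨rfl, Subtype.ext e'⟩
  have hcardG : ∀ v : Equiv.Perm (Fin D.nroots), (∃ L' : List ℕ, (∀ x ∈ L', x < D.rank) ∧ S.wprod L' = v) →
      (Finset.univ.filter (fun u : D.group F => (u : GL D.Idx F) ∈ S.uminus F v)).card =
        Fintype.card F ^ wlen v := by
    rintro v ⟨L', hL', rfl⟩
    rw [← Nat.card_eq_fintype_card (α := F), ← S.card_uminus (S.acts_nw (F := F) hL'),
      ← Fintype.card_subtype, ← Nat.card_eq_fintype_card]
    exact Nat.card_congr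
      { toFun := fun u => ⟨(u.1 : GL D.Idx F), u.2⟩
        invFun := fun u => ⟨⟨u.1, S.pos_le_group (S.genBy_le_pos _ u.2)⟩, u.2⟩
        left_inv := fun _ => rfl
        right_inv := fun _ => rfl }
  have hcard : B.card = ((Finset.univ : Finset F) ×ˢ A).card := by
    rw [hA, hB, Finset.card_product, Finset.card_univ,
      hcardG _ ⟨L.reverse, fun x hx => hL x (List.mem_reverse.1 hx), (S.wprod_inv L).symm⟩,
      hcardG _ ⟨L.reverse ++ [(i : ℕ)], fun x hx => by
        rcases List.mem_append.1 hx with h | h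
        · exact hL x (List.mem_reverse.1 h)
        · rw [List.mem_singleton.1 h]; exact i.2,
        by rw [wprod_append, hw, wprod_inv]; simp [wprod]⟩,
      S.wlen_mul_refl_of_pos (inv_mem hwW) hpos, pow_succ']
  refine Finset.sum_nbij f hmap hinj ?_ fun p _ => ?_
  · exact (Finset.surjOn_of_injOn_of_card_le f hmap hinj hcard.le)
  · simp only [f, S.nL_cons]
    congr 1
    group

theorem exists_cellSum_cons_cons {L : List ℕ} (hL : ∀ x ∈ L, x < D.rank) (i : Fin D.rank) {b : V}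
    (hb : S.Eig ρ b) :
    ∃ c : k, c ≠ 0 ∧ S.cellSum ρ ((i : ℕ) :: (i : ℕ) :: L) b = c • S.cellSum ρ L b := by
  classical
  rcases eq_or_ne b 0 with rfl | hb0
  · exact ⟨1, one_ne_zero, by simp⟩
  have hh : (S.nL F L)⁻¹ * (S.nG F i * S.nG F i) * S.nL F L ∈ HG F S :=
    S.nL_conj_HG hL (by rw [S.nG_sq i.2]; exact S.etaG_mem i.2 _)
  obtain ⟨c, hc⟩ := hb.2 _ hh
  refine ⟨c, scalar_ne_zero hb0 hc, ?_⟩
  have hw : S.wprod ((i : ℕ) :: (i : ℕ) :: L) = S.wprod L := by
    rw [wprod_cons, wprod_cons, ← mul_assoc, S.refl_mul_self, one_mul]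
  rw [S.cellSum_eq, S.cellSum_eq, LinearMap.sum_apply, LinearMap.sum_apply, Finset.smul_sum]
  refine Finset.sum_congr (by rw [hw]) fun u _ => ?_
  rw [show u * S.nL F ((i : ℕ) :: (i : ℕ) :: L) =
      u * S.nL F L * ((S.nL F L)⁻¹ * (S.nG F i * S.nG F i) * S.nL F L) by
    rw [S.nL_cons, S.nL_cons]; group, rep_mul_apply, hc, map_smul]

/-- A cell sum with a descent is in the image of `T_i`. -/
theorem exists_cellSum_desc {L : List ℕ} (hL : ∀ x ∈ L, x < D.rank) (i : Fin D.rank) {b : V}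
    (hb : S.Eig ρ b) (hneg : ¬S.Pos ((S.wprod L)⁻¹ (S.sr i))) :
    ∃ c : k, S.cellSum ρ L b = c • S.Tq ρ i (S.cellSum ρ ((i : ℕ) :: L) b) := by
  obtain ⟨c, hc0, hc⟩ := S.exists_cellSum_cons_cons ρ hL i hb
  refine ⟨c⁻¹, ?_⟩
  rw [← Module.End.mul_apply, S.Tq_cellSum_asc ρ (List.forall_mem_cons.2 ⟨i.2, hL⟩) i (by
    rw [S.wprod_cons_inv]
    exact (S.pos_mul_refl (inv_mem (S.wprod_mem_weyl L)) i).2 hneg), hc, inv_smul_smul₀ hc0]

theorem Eig_cellSum {b : V} (hb : S.Eig ρ b) :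
    ∀ L : List ℕ, (∀ x ∈ L, x < D.rank) → S.Eig ρ (S.cellSum ρ L b) := by
  classical
  intro L
  induction hn : wlen (S.wprod L) using Nat.strong_induction_on generalizing L with
  | _ n ih =>
  intro hL
  subst hn
  have hwW : S.wprod L ∈ S.weyl := S.wprod_mem_weyl L
  by_cases h1 : S.wprod L = 1
  · have hnd : S.nL F L ∈ HG F S := Subgroup.mem_subgroupOf.2 (by
      rw [coe_nL]
      exact S.mem_diag_of_pos (S.nw_mem_mono hL) (S.acts_nw hL) fun r hr => by rw [h1]; exact hr)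
    obtain ⟨c, hc⟩ := hb.2 _ hnd
    have : S.cellSum ρ L b = c • b := by
      rw [S.cellSum_eq, LinearMap.sum_apply, Finset.sum_eq_single (1 : D.group F)]
      · rw [one_mul, hc]
      · intro u hu hne
        refine absurd ?_ hne
        rw [Finset.mem_filter, h1, inv_one] at hu
        have h2 : S.uminus F (1 : Equiv.Perm (Fin D.nroots)) ≤ ⊥ :=
          S.genBy_le fun r h1 h2 h3 t => absurd h1 (not_le.2 (by
            obtain ⟨_, h⟩ := h3
            simpa using h))
        exact Subtype.ext (Subgroup.mem_bot.1 (h2 hu.2))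
      · intro h
        exact absurd (Finset.mem_filter.2 ⟨Finset.mem_univ _, by simp⟩) h
    rw [this]
    exact hb.smul c
  · obtain ⟨i, hi⟩ := S.exists_descent (inv_mem hwW) (by rwa [ne_eq, inv_eq_one])
    obtain ⟨c, hc⟩ := S.exists_cellSum_desc ρ hL i hb hi
    rw [hc]
    refine (S.Tq_eig ρ i.2 (ih _ ?_ _ rfl (List.forall_mem_cons.2 ⟨i.2, hL⟩))).smul c
    rw [← S.wlen_inv (S.wprod_mem_weyl _), S.wprod_cons_inv, ← S.wlen_inv hwW]
    have := S.wlen_mul_refl_of_neg (inv_mem hwW) hi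
    omega

/-- `T_i` on a cell sum with a descent. -/
theorem Tq_cellSum_desc (hk : (Fintype.card F : k) = 0) {L : List ℕ} (hL : ∀ x ∈ L, x < D.rank)
    (i : Fin D.rank) {b : V} (hb : S.Eig ρ b) (hneg : ¬S.Pos ((S.wprod L)⁻¹ (S.sr i)))
    {χ : Fˣ →* kˣ} (hχ : ∀ a, ρ (S.etaG F i i.2 a) (S.cellSum ρ L b) = (χ a : k) • S.cellSum ρ L b)
    [Decidable (χ = 1)] :
    S.Tq ρ i (S.cellSum ρ L b) = (if χ = 1 then (-1 : k) else 0) • S.cellSum ρ L b := by
  classical
  obtain ⟨c, hc⟩ := S.exists_cellSum_desc ρ hL i hb hneg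
  rcases eq_or_ne (S.cellSum ρ L b) 0 with h0 | h0
  · rw [h0, map_zero, smul_zero]
  set y := S.cellSum ρ ((i : ℕ) :: L) b with hy
  have hye : S.Eig ρ y := S.Eig_cellSum ρ hb _ (List.forall_mem_cons.2 ⟨i.2, hL⟩)
  have hy0 : y ≠ 0 := fun h => h0 (by rw [hc, h, map_zero, smul_zero])
  obtain ⟨ψ, hψ⟩ := exists_char ρ (S.etaG F i i.2) hy0 fun a => hye.2 _ (S.etaG_mem i.2 a)
  have hinv : χ = ψ⁻¹ := MonoidHom.ext fun a => Units.ext (smul_left_injective k h0 (by
    show (χ a : k) • _ = ((ψ⁻¹) a : k) • _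
    rw [← hχ a, hc, map_smul, S.Tq_eta ρ i.2 hψ, Units.smul_def, smul_comm, MonoidHom.inv_apply]))
  rw [hc, map_smul, S.Tq_Tq ρ hk i.2 hye.1 hψ, smul_comm]
  congr 1
  subst hinv
  split_ifs with h1 h2 h2
  · rfl
  · exact absurd (MonoidHom.ext fun a => by simp [MonoidHom.inv_apply, h1]) h2
  · exact absurd (MonoidHom.ext fun a => by simpa using DFunLike.congr_fun h2 a) h1
  · rfl

end CfsgLib.Chev.Sys
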