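import Cfsg.Agent.Chev.CurtisRichen.Weight

/-!
# An irreducible representation is determined by its weight

For a weight vector `v` the span of the `ρ(u n₀) v`, `u ∈ U`, is invariant under the whole group.
Hence an irreducible representation has a one-dimensional space of `U`-fixed vectors and is
determined by the weight of this line.
-/

set_option autoImplicit false
set_option linter.unusedSectionVars false
set_option linter.unusedDecidableInType false

namespace CfsgLib.Chev.Sys

open Cfsg Cfsg.Lie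

universe u v w w'

section
variable {D : ChevalleyDatum} (S : Sys.{u} D)

/-- A word of the longest element. -/
noncomputable def L0 : List ℕ := S.exists_longest.choose

theorem L0_lt : ∀ q ∈ S.L0, q < D.rank := S.exists_longest.choose_spec.1

theorem L0_neg {r : Fin D.nroots} (hr : S.Pos r) : ¬S.Pos (S.wprod S.L0 r) :=
  not_le.2 (S.exists_longest.choose_spec.2 r hr)

theorem L0_pos {r : Fin D.nroots} (hr : ¬S.Pos r) : S.Pos (S.wprod S.L0 r) := by
  have hn : D.neg (r : ℕ) < D.nroots := S.neg_lt r.2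
  have hpos : S.Pos ⟨D.neg (r : ℕ), hn⟩ := by
    show D.nroots / 2 ≤ D.neg (r : ℕ)
    have := not_le.1 hr
    rw [S.neg_eq _ r.2]
    have := S.even_nroots
    omega
  have h1 := not_le.1 (S.L0_neg hpos)
  rw [S.wprod_neg S.L0_lt r _ rfl, S.neg_eq _ (Fin.is_lt _)] at h1
  show D.nroots / 2 ≤ (S.wprod S.L0 r : ℕ)
  have := S.even_nroots
  omega

theorem L0_inv_neg {r : Fin D.nroots} (hr : S.Pos r) : ¬S.Pos ((S.wprod S.L0)⁻¹ r) := fun h => by
  have := S.L0_neg h
  rw [← Equiv.Perm.mul_apply, mul_inv_cancel, Equiv.Perm.one_apply] at this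
  exact this hr

/-- The longest element carries a fundamental root to a given negative fundamental root. -/
theorem exists_L0_simple (j : Fin D.rank) : ∃ i : Fin D.rank, S.wprod S.L0 (S.sr i) = S.refl j (S.sr j) := by
  set w0 := S.wprod S.L0
  have hγ : S.Pos (w0⁻¹ (S.refl j (S.sr j))) := by
    by_contra h
    have := S.L0_pos h
    rw [← Equiv.Perm.mul_apply, mul_inv_cancel, Equiv.Perm.one_apply] at this
    exact S.refl_sr j this
  by_contra hne
  push Not at hne
  refine S.neg_of_support (w := S.refl j * w0) (mul_mem (S.refl_mem_weyl _) (S.wprod_mem_weyl _)) hγ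
    (fun i _ hp => ?_) (by
      rw [← Equiv.Perm.mul_apply, mul_assoc, mul_inv_cancel, mul_one, S.refl_refl]; exact S.sr_pos j)
  rw [Equiv.Perm.mul_apply] at hp
  have h1 := S.eq_sr_of_refl_neg j hp (by rw [S.refl_refl]; exact S.L0_neg (S.sr_pos i))
  exact hne i (by rw [← h1, S.refl_refl])

variable {F : Type u} [Field F]

theorem acts_nw_inv {L : List ℕ} (hL : ∀ q ∈ L, q < D.rank) : S.Acts (S.nw F L)⁻¹ (S.wprod L)⁻¹ := by
  obtain ⟨h, hh, e⟩ := S.nw_inv (F := F) hL
  rw [e, wprod_inv]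
  have := S.acts_mul (S.acts_diag hh) (S.acts_nw (F := F) fun q hq => hL q (List.mem_reverse.1 hq))
  rwa [one_mul] at this

end

variable {D : ChevalleyDatum} (S : Sys.{u} D) {F : Type u} [Field F] [Fintype F]
variable {k : Type v} [Field k] {V : Type w} [AddCommGroup V] [Module k V]
variable (ρ : Representation k (D.group F) V)

/-- The span of the translates of `n₀ v` under `U`. -/
def wspan (v : V) : Submodule k V :=
  Submodule.span k (Set.range fun u : UG F S => ρ ((u : D.group F) * S.nL F S.L0) v)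

theorem mem_wspan {v : V} {y : D.group F} (hy : y ∈ UG F S) : ρ (y * S.nL F S.L0) v ∈ S.wspan ρ v :=
  Submodule.subset_span ⟨⟨y, hy⟩, rfl⟩

theorem wspan_rep_U {v x : V} {y : D.group F} (hy : y ∈ UG F S) (hx : x ∈ S.wspan ρ v) :
    ρ y x ∈ S.wspan ρ v := by
  induction hx using Submodule.span_induction with
  | mem x hx =>
    obtain ⟨u, rfl⟩ := hx
    rw [← rep_mul_apply, ← mul_assoc]
    exact S.mem_wspan ρ (mul_mem hy u.2)
  | zero => rw [map_zero]; exact zero_mem _
  | add a b _ _ ha hb => rw [map_add]; exact add_mem ha hb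
  | smul c a _ ha => rw [map_smul]; exact Submodule.smul_mem _ c ha

theorem wspan_key {v : V} {ω : S.Wgt F k} (h : S.HasWt ρ v ω) (i : Fin D.rank) (t : F) :
    ρ (S.nL F S.L0 * (S.xSG F i t * S.nG F i)) v ∈ S.wspan ρ v := by
  classical
  set n0 := S.nL F S.L0
  have hgen : ∀ c : F, ρ (n0 * ⟨S.xU (D.neg (D.simple i)) c, S.xU_mem_group _ _⟩) v ∈ S.wspan ρ v := by
    intro c
    let r : Fin D.nroots := ⟨D.neg (D.simple i), S.neg_lt (S.simple_lt i.2)⟩
    obtain ⟨d, hd⟩ := S.acts_nw (F := F) S.L0_lt r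
    have hr : ¬S.Pos r := by
      show ¬ D.nroots / 2 ≤ D.neg (D.simple i)
      rw [S.neg_eq _ (S.simple_lt i.2)]
      have := (S.simple_pos i i.2).1
      have := S.simple_lt i.2
      have := S.even_nroots
      omega
    have hy : n0 * ⟨S.xU (D.neg (D.simple i)) c, S.xU_mem_group _ _⟩ * n0⁻¹ ∈ UG F S := by
      rw [Subgroup.mem_subgroupOf]
      push_cast
      rw [coe_nL, show S.xU (D.neg (D.simple i)) c = S.xU (r : ℕ) c from rfl, hd]
      exact S.xU_mem_posUnipotent (S.L0_pos hr) (Fin.is_lt _) _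
    have := S.mem_wspan ρ (v := v) hy
    rwa [inv_mul_cancel_right] at this
  have hne : ∀ t : Fˣ, ρ (n0 * (S.xSG F i (t : F) * S.nG F i)) v ∈ S.wspan ρ v := by
    intro t
    have e : (⟨S.xU (D.neg (D.simple i)) (t : F)⁻¹, S.xU_mem_group _ _⟩ : D.group F) =
        S.xSG F i (t : F) * (S.etaG F i i.2 (-t) * S.nG F i) * S.xSG F i (t : F) := Subtype.ext (by
      push_cast
      show S.xU (D.neg (D.simple i)) (t : F)⁻¹ = S.xU (D.simple i) (t : F) *
        (S.dg (hz D (D.simple i) (-t)) * S.nU (D.simple i) 1) * S.xU (D.simple i) (t : F)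
      rw [S.xU_neg_split _ (inv_ne_zero t.ne_zero), inv_inv, ← S.nU_simple i.2, Units.val_neg])
    have h1 := hgen (t : F)⁻¹
    have hfix : ρ (S.xSG F i (t : F)) v = v := h.2.1 _ (S.xSG_mem_U i.2 _)
    have hs : S.etaG F i i.2 (-t) * S.nG F i = S.nG F i * S.etaG F i i.2 (-t)⁻¹ := by
      rw [S.nG_swap i.2, inv_inv]
    rw [e, hs, rep_mul_apply, rep_mul_apply, hfix, ← mul_assoc, rep_mul_apply, h.2.2.1, map_smul,
      map_smul, ← rep_mul_apply] at h1
    rw [← Submodule.smul_mem_iff _ (wchi (ω i) (-t)⁻¹).ne_zero]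
    exact h1
  rcases eq_or_ne t 0 with rfl | ht
  · have hsum : ρ n0 (S.Tq ρ i v) ∈ S.wspan ρ v := by
      rw [h.2.2.2, map_smul]
      exact Submodule.smul_mem _ _ (by simpa using S.mem_wspan ρ (v := v) (one_mem (UG F S)))
    rw [S.Tq_apply, map_sum, ← Finset.add_sum_erase _ _ (Finset.mem_univ (0 : F)), ← rep_mul_apply] at hsum
    refine (Submodule.add_mem_iff_left _ (Submodule.sum_mem _ fun s hs => ?_)).1 hsum
    rw [← rep_mul_apply]
    exact hne (Units.mk0 s (Finset.ne_of_mem_erase hs))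
  · exact hne (Units.mk0 t ht)

theorem wspan_rep_nG {v : V} {ω : S.Wgt F k} (h : S.HasWt ρ v ω) (j : Fin D.rank) {x : V}
    (hx : x ∈ S.wspan ρ v) : ρ (S.nG F j) x ∈ S.wspan ρ v := by
  induction hx using Submodule.span_induction with
  | mem x hx =>
    obtain ⟨u, rfl⟩ := hx
    set n0 := S.nL F S.L0 with hn0
    obtain ⟨a, ha, s, e⟩ := S.exists_up_split j.2 (Subgroup.mem_subgroupOf.1 u.2)
    have haU : S.nU (D.simple j) (1 : F) * a * (S.nU (D.simple j) 1)⁻¹ ∈ D.posUnipotent F :=
      S.genBy_le_pos _ (S.nU_conj_upSub j.2 ha)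
    have e1 : S.nG F j * ((u : D.group F) * n0) =
        ⟨_, S.pos_le_group haU⟩ * (S.nG F j * S.xSG F j s * n0) := Subtype.ext (by
      push_cast
      show S.nU (D.simple j) (1 : F) * (((u : D.group F) : GL D.Idx F) * (n0 : GL D.Idx F)) = _ *
        (S.nU (D.simple j) 1 * S.xU (D.simple j) s * (n0 : GL D.Idx F))
      rw [e]; group)
    rw [← rep_mul_apply, e1, rep_mul_apply]
    refine S.wspan_rep_U ρ (Subgroup.mem_subgroupOf.2 haU) ?_
    obtain ⟨i, hi⟩ := S.exists_L0_simple j
    obtain ⟨c, hc⟩ := S.acts_nw (F := F) S.L0_lt (S.sr i)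
    have hcomm : S.wprod S.L0 * S.refl i = S.refl j * S.wprod S.L0 := by
      have h1 : S.wprod ((j : ℕ) :: S.L0) (S.sr i) = S.sr j := by
        rw [wprod_cons, Equiv.Perm.mul_apply, hi, S.refl_refl]
      have h2 := S.conj_refl h1
      rw [wprod_cons, ← mul_assoc, S.refl_mul_self, one_mul, mul_assoc] at h2
      calc S.wprod S.L0 * S.refl i = S.refl j * (S.refl j * (S.wprod S.L0 * S.refl i)) := by
            rw [← mul_assoc, S.refl_mul_self, one_mul]
        _ = S.refl j * S.wprod S.L0 := by rw [h2]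
    set m := n0⁻¹ * S.nG F j * n0 * (S.nG F i)⁻¹ with hm
    have hmH : m ∈ HG F S := by
      rw [Subgroup.mem_subgroupOf, hm, hn0]
      push_cast
      rw [coe_nL, coe_nG, coe_nG]
      have hmono : ∀ q : Fin D.rank, S.nU (D.simple q) (1 : F) ∈ D.monomialSubgroup F :=
        fun q => S.nU_simple_mem_mono q.2
      have hL := S.nw_mem_mono (F := F) S.L0_lt
      have hi' : S.Acts (S.nU (D.simple i) (1 : F))⁻¹ (S.refl i) := by
        have := S.acts_nw_inv (F := F) (L := [(i : ℕ)]) (by simp)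
        simpa [nw, wprod, S.refl_inv] using this
      refine S.mem_diag_of_pos (mul_mem (mul_mem (mul_mem (inv_mem hL) (hmono j)) hL) (inv_mem (hmono i)))
        (S.acts_mul (S.acts_mul (S.acts_mul (S.acts_nw_inv (F := F) S.L0_lt) (S.acts_nU j.2))
          (S.acts_nw (F := F) S.L0_lt)) hi') fun r hr => ?_
      rw [mul_assoc (S.wprod S.L0)⁻¹, ← hcomm, inv_mul_cancel_left, S.refl_mul_self]
      exact hr
    set t : F := (c : F)⁻¹ * -s
    have e2 : S.nG F j * S.xSG F j s * n0 =
        n0 * (S.xSG F i t * S.nG F i) * ((S.nG F i)⁻¹ * m * S.nG F i) := by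
      have e3 : S.nG F j * S.xSG F j s * (S.nG F j)⁻¹ = n0 * S.xSG F i t * n0⁻¹ := Subtype.ext (by
        rw [hn0]
        push_cast
        rw [coe_nL]
        show S.nU (D.simple j) 1 * S.xU (D.simple j) s * (S.nU (D.simple j) 1)⁻¹ =
          S.nw F S.L0 * S.xU (D.simple i) t * (S.nw F S.L0)⁻¹
        rw [S.nU_conj_xp j.2, show S.xU (D.simple i) t = S.xU (S.sr i : ℕ) t from rfl, hc, hi,
          S.refl_apply j.2, show S.pi j (S.sr j : ℕ) = D.neg (D.simple j) from S.pi_simple j j.2]
        congr 1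
        simp [t])
      calc S.nG F j * S.xSG F j s * n0 =
          S.nG F j * S.xSG F j s * (S.nG F j)⁻¹ * (S.nG F j * n0) := by group
        _ = _ := by rw [e3, hm]; group
    obtain ⟨d, hd⟩ := h.eig.2 _ (S.nG_conj_HG i.2 hmH)
    rw [e2, rep_mul_apply, hd, map_smul]
    exact Submodule.smul_mem _ _ (S.wspan_key ρ h i t)
  | zero => rw [map_zero]; exact zero_mem _
  | add a b _ _ ha hb => rw [map_add]; exact add_mem ha hb
  | smul c a _ ha => rw [map_smul]; exact Submodule.smul_mem _ c ha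

theorem wspan_invariant {v : V} {ω : S.Wgt F k} (h : S.HasWt ρ v ω) (g : D.group F) :
    S.wspan ρ v ≤ (S.wspan ρ v).comap (ρ g) := by
  set P : D.group F → Prop := fun g => ∀ x ∈ S.wspan ρ v, ρ g x ∈ S.wspan ρ v
  have hmul : ∀ a b, P a → P b → P (a * b) := fun a b ha hb x hx => by
    rw [rep_mul_apply]; exact ha _ (hb x hx)
  have hH : ∀ t ∈ HG F S, P t := by
    intro t ht x hx
    induction hx using Submodule.span_induction with
    | mem x hx =>
      obtain ⟨u, rfl⟩ := hx
      obtain ⟨d, hd⟩ := h.eig.2 _ (S.nL_conj_HG S.L0_lt ht)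
      rw [← rep_mul_apply,
        show t * ((u : D.group F) * S.nL F S.L0) =
          t * (u : D.group F) * t⁻¹ * S.nL F S.L0 * ((S.nL F S.L0)⁻¹ * t * S.nL F S.L0) by group,
        rep_mul_apply, hd, map_smul]
      refine Submodule.smul_mem _ _ (S.mem_wspan ρ (Subgroup.mem_subgroupOf.2 ?_))
      push_cast
      exact S.diag_conj_pos (Subgroup.mem_subgroupOf.1 ht) (Subgroup.mem_subgroupOf.1 u.2)
    | zero => rw [map_zero]; exact zero_mem _
    | add a b _ _ ha hb => rw [map_add]; exact add_mem ha hb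
    | smul c a _ ha => rw [map_smul]; exact Submodule.smul_mem _ c ha
  have hL : ∀ L : List ℕ, (∀ q ∈ L, q < D.rank) → P (S.nL F L) := by
    intro L
    induction L with
    | nil => exact fun _ x hx => by simpa [nL] using hx
    | cons q L ih =>
      intro hL
      rw [S.nL_cons]
      exact hmul _ _ (fun x hx => S.wspan_rep_nG ρ h ⟨q, hL q (by simp)⟩ hx)
        (ih fun x hx => hL x (by simp [hx]))
  have hB : ∀ b (hb : b ∈ D.borelSubgroup F), P ⟨b, S.borel_le_group hb⟩ := by
    intro b hb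
    obtain ⟨t, ht, u, hu, rfl⟩ := S.mem_borel_right hb
    exact hmul ⟨t, S.diag_le_group ht⟩ ⟨u, S.pos_le_group hu⟩ (hH _ ht)
      fun x hx => S.wspan_rep_U ρ (Subgroup.mem_subgroupOf.2 hu) hx
  obtain ⟨b, hb, n, hn, b', hb', e⟩ := S.exists_bnb g.2
  obtain ⟨L, hLl, t, ht, rfl⟩ := S.mem_mono_iff.1 hn
  have e' : g = ⟨b, S.borel_le_group hb⟩ * (⟨t, S.diag_le_group ht⟩ * S.nL F L) *
      ⟨b', S.borel_le_group hb'⟩ := Subtype.ext (by push_cast; rw [coe_nL]; exact e)
  rw [e']
  exact hmul _ _ (hmul _ _ (hB b hb) (hmul _ _ (hH _ ht) (hL L hLl))) (hB b' hb')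

theorem self_mem_of_invariant {v : V} {W : Submodule k V} (hW : ∀ g, W ≤ W.comap (ρ g))
    (hv : S.wspan ρ v ≤ W) : v ∈ W := by
  have h1 : ρ (S.nL F S.L0) v ∈ W := hv (by simpa using S.mem_wspan ρ (v := v) (one_mem (UG F S)))
  have h2 := hW (S.nL F S.L0)⁻¹ h1
  rw [Submodule.mem_comap, Representation.inv_self_apply] at h2
  exact h2

/-- Irreducibility of a representation. -/
def Irred : Prop := ∀ W : Submodule k V, (∀ g, W ≤ W.comap (ρ g)) → W = ⊥ ∨ W = ⊤

theorem wspan_eq_top (hirr : Irred ρ) {v : V} {ω : S.Wgt F k} (h : S.HasWt ρ v ω) : S.wspan ρ v = ⊤ := by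
  refine (hirr _ (S.wspan_invariant ρ h)).resolve_left fun hb => h.1 ?_
  have := S.self_mem_of_invariant ρ (S.wspan_invariant ρ h) le_rfl
  rw [hb] at this
  exact this

variable (p : ℕ) [Fact p.Prime] [CharP F p] [CharP k p] [IsAlgClosed k] [FiniteDimensional k V]

include p in
/-- A functional that is injective on the `U`-fixed vectors. -/
theorem exists_fix_separator (hirr : Irred ρ) [Nontrivial V] :
    ∃ g : V →ₗ[k] k, ∀ x, S.UFix ρ x → g x = 0 → x = 0 := by
  haveI : Nontrivial (Module.Dual k V) := (Module.nontrivial_dual_iff k).2 inferInstance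
  obtain ⟨f, ω, hf⟩ := S.exists_hasWt ρ.dual p
  set A := (S.wspan ρ.dual f).dualCoannihilator with hA
  have hAinv : ∀ g, A ≤ A.comap (ρ g) := by
    intro g x hx
    rw [Submodule.mem_comap, hA, Submodule.mem_dualCoannihilator]
    intro φ hφ
    have := (Submodule.mem_dualCoannihilator _).1 hx _ (S.wspan_invariant ρ.dual hf g⁻¹ hφ)
    rw [Representation.dual_apply, Module.Dual.transpose_apply, inv_inv] at this
    exact this
  have hAtop : A ≠ ⊤ := fun htop => hf.1 (LinearMap.ext fun x => by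
    have := (Submodule.mem_dualCoannihilator x).1 (htop ▸ Submodule.mem_top : x ∈ A) f
      (S.self_mem_of_invariant ρ.dual (S.wspan_invariant ρ.dual hf) le_rfl)
    simpa using this)
  refine ⟨f.comp (ρ (S.nL F S.L0)⁻¹), fun x hx h0 => ?_⟩
  have hxA : x ∈ A := by
    rw [hA, Submodule.mem_dualCoannihilator]
    intro φ hφ
    induction hφ using Submodule.span_induction with
    | mem φ hφ =>
      obtain ⟨u, rfl⟩ := hφ
      show ρ.dual ((u : D.group F) * S.nL F S.L0) f x = 0
      rw [Representation.dual_apply, Module.Dual.transpose_apply, LinearMap.comp_apply,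
        _root_.mul_inv_rev, rep_mul_apply, hx _ (inv_mem u.2)]
      exact h0
    | zero => rfl
    | add a b _ _ ha hb => rw [LinearMap.add_apply, ha, hb, add_zero]
    | smul c a _ ha => rw [LinearMap.smul_apply, ha, smul_zero]
  rw [(hirr A hAinv).resolve_right hAtop] at hxA
  exact hxA

include p in
/-- The weight of an irreducible representation is unique. -/
theorem wt_unique (hirr : Irred ρ) {v v' : V} {ω ω' : S.Wgt F k} (h : S.HasWt ρ v ω)
    (h' : S.HasWt ρ v' ω') : ω = ω' := by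
  haveI : Nontrivial V := ⟨⟨v, 0, h.1⟩⟩
  obtain ⟨g, hg⟩ := S.exists_fix_separator ρ p hirr
  have h0 : g v • v' - g v' • v = 0 := hg _ (fun u hu => by
    rw [map_sub, map_smul, map_smul, h.2.1 u hu, h'.2.1 u hu]) (by
    rw [map_sub, map_smul, map_smul, smul_eq_mul, smul_eq_mul, mul_comm, sub_self])
  rw [sub_eq_zero] at h0
  have hgv : g v ≠ 0 := fun e => h.1 (hg v h.2.1 e)
  have e : (g v'/ g v) • v = v' := by
    rw [div_eq_inv_mul, ← smul_smul, ← h0, inv_smul_smul₀ hgv]
  have hm := h.map (σ := ρ) ((g v' / g v) • LinearMap.id) (fun x y => by simp) (by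
    simpa [e] using h'.1)
  simp only [LinearMap.smul_apply, LinearMap.id_apply, e] at hm
  exact hm.unique h'

include p in
/-- Irreducible representations with the same weight are equivalent. -/
theorem iso_of_wt {V' : Type w'} [AddCommGroup V'] [Module k V'] [FiniteDimensional k V']
    (σ : Representation k (D.group F) V') (hirr : Irred ρ) (hirr' : Irred σ) {v : V} {v' : V'}
    {ω : S.Wgt F k} (h : S.HasWt ρ v ω) (h' : S.HasWt σ v' ω) :
    ∃ e : V ≃ₗ[k] V', ∀ g, σ g = e.conj (ρ g) := by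
  haveI : Nontrivial V := ⟨⟨v, 0, h.1⟩⟩
  haveI : Nontrivial V' := ⟨⟨v', 0, h'.1⟩⟩
  let τ : Representation k (D.group F) (V × V') :=
    { toFun := fun g => (ρ g).prodMap (σ g)
      map_one' := by ext x <;> simp
      map_mul' := fun a b => by ext x <;> simp }
  have hτ : S.HasWt τ (v, v') ω :=
    ⟨fun e => h.1 (Prod.ext_iff.1 e).1, fun u hu => Prod.ext (h.2.1 u hu) (h'.2.1 u hu),
      fun i a => Prod.ext (h.2.2.1 i a) (h'.2.2.1 i a), fun i => by
        rw [S.Tq_apply]
        refine Prod.ext ?_ ?_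
        · rw [Prod.fst_sum]
          exact (S.Tq_apply ρ i v).symm.trans (h.2.2.2 i)
        · rw [Prod.snd_sum]
          exact (S.Tq_apply σ i v').symm.trans (h'.2.2.2 i)⟩
  set W := S.wspan τ (v, v') with hWdef
  have hWinv := S.wspan_invariant τ hτ
  have hvW : (v, v') ∈ W := S.self_mem_of_invariant τ hWinv le_rfl
  -- functionals fixed by `U`
  obtain ⟨f, ωf, hf⟩ : ∃ (f : Module.Dual k V) (ω' : S.Wgt F k), S.HasWt ρ.dual f ω' := by
    haveI : Nontrivial (Module.Dual k V) := (Module.nontrivial_dual_iff k).2 inferInstance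
    exact S.exists_hasWt ρ.dual p
  obtain ⟨f', ωf', hf'⟩ : ∃ (f : Module.Dual k V') (ω' : S.Wgt F k), S.HasWt σ.dual f ω' := by
    haveI : Nontrivial (Module.Dual k V') := (Module.nontrivial_dual_iff k).2 inferInstance
    exact S.exists_hasWt σ.dual p
  have hfix : ∀ u : UG F S, ∀ x, f (ρ (u : D.group F) x) = f x := fun u x => by
    have := LinearMap.congr_fun (hf.2.1 _ (inv_mem u.2)) x
    rwa [Representation.dual_apply, Module.Dual.transpose_apply, inv_inv] at this
  have hfix' : ∀ u : UG F S, ∀ x, f' (σ (u : D.group F) x) = f' x := fun u x => by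
    have := LinearMap.congr_fun (hf'.2.1 _ (inv_mem u.2)) x
    rwa [Representation.dual_apply, Module.Dual.transpose_apply, inv_inv] at this
  set n0 := S.nL F S.L0
  have ha : f (ρ n0 v) ≠ 0 := fun e => hf.1 (LinearMap.ext fun x => by
    have hx : x ∈ S.wspan ρ v := (S.wspan_eq_top ρ hirr h) ▸ Submodule.mem_top
    refine (Submodule.span_le (p := LinearMap.ker f)).2 ?_ hx
    rintro _ ⟨u, rfl⟩
    show f (ρ ((u : D.group F) * n0) v) = 0
    rw [rep_mul_apply, hfix, e])
  have ha' : f' (σ n0 v') ≠ 0 := fun e => hf'.1 (LinearMap.ext fun x => by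
    have hx : x ∈ S.wspan σ v' := (S.wspan_eq_top σ hirr' h') ▸ Submodule.mem_top
    refine (Submodule.span_le (p := LinearMap.ker f')).2 ?_ hx
    rintro _ ⟨u, rfl⟩
    show f' (σ ((u : D.group F) * n0) v') = 0
    rw [rep_mul_apply, hfix', e])
  let Λ : V × V' →ₗ[k] k := (f (ρ n0 v))⁻¹ • f.comp (LinearMap.fst k V V') -
    (f' (σ n0 v'))⁻¹ • f'.comp (LinearMap.snd k V V')
  have hΛ : W ≤ LinearMap.ker Λ := by
    rw [hWdef, wspan, Submodule.span_le]
    rintro _ ⟨u, rfl⟩
    show Λ (ρ ((u : D.group F) * n0) v, σ ((u : D.group F) * n0) v') = 0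
    simp only [Λ, LinearMap.sub_apply, LinearMap.smul_apply, LinearMap.comp_apply, LinearMap.fst_apply,
      LinearMap.snd_apply, rep_mul_apply, hfix, hfix', smul_eq_mul, inv_mul_cancel₀ ha,
      inv_mul_cancel₀ ha', sub_self]
  have hl : W.comap (LinearMap.inl k V V') = ⊥ := by
    refine (hirr _ fun g x hx => ?_).resolve_right fun ht => hf.1 (LinearMap.ext fun x => ?_)
    · have := hWinv g hx
      simpa [τ] using this
    · have : x ∈ W.comap (LinearMap.inl k V V') := ht ▸ Submodule.mem_top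
      simpa [Λ, ha] using hΛ this
  have hr : W.comap (LinearMap.inr k V V') = ⊥ := by
    refine (hirr' _ fun g x hx => ?_).resolve_right fun ht => hf'.1 (LinearMap.ext fun x => ?_)
    · have := hWinv g hx
      simpa [τ] using this
    · have : x ∈ W.comap (LinearMap.inr k V V') := ht ▸ Submodule.mem_top
      simpa [Λ, ha'] using hΛ this
  let π₁ : W →ₗ[k] V := (LinearMap.fst k V V').comp W.subtype
  let π₂ : W →ₗ[k] V' := (LinearMap.snd k V V').comp W.subtype
  have hinj₁ : Function.Injective π₁ := (injective_iff_map_eq_zero _).2 fun y hy => by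
    have h1 : (y : V × V').2 ∈ W.comap (LinearMap.inr k V V') := by
      show ((0 : V), (y : V × V').2) ∈ W
      rw [show ((0 : V), (y : V × V').2) = (y : V × V') from Prod.ext hy.symm rfl]
      exact y.2
    rw [hr] at h1
    exact Subtype.ext (Prod.ext hy h1)
  have hinj₂ : Function.Injective π₂ := (injective_iff_map_eq_zero _).2 fun y hy => by
    have h1 : (y : V × V').1 ∈ W.comap (LinearMap.inl k V V') := by
      show ((y : V × V').1, (0 : V')) ∈ W
      rw [show ((y : V × V').1, (0 : V')) = (y : V × V') from Prod.ext rfl hy.symm]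
      exact y.2
    rw [hl] at h1
    exact Subtype.ext (Prod.ext h1 hy)
  have hs₁ : Function.Surjective π₁ := by
    rw [← LinearMap.range_eq_top]
    refine (hirr _ ?_).resolve_left fun hb => h.1 ?_
    · rintro g _ ⟨y, rfl⟩
      exact ⟨⟨τ g y, hWinv g y.2⟩, rfl⟩
    · have : v ∈ LinearMap.range π₁ := ⟨⟨_, hvW⟩, rfl⟩
      rw [hb] at this
      exact this
  have hs₂ : Function.Surjective π₂ := by
    rw [← LinearMap.range_eq_top]
    refine (hirr' _ ?_).resolve_left fun hb => h'.1 ?_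
    · rintro g _ ⟨y, rfl⟩
      exact ⟨⟨τ g y, hWinv g y.2⟩, rfl⟩
    · have : v' ∈ LinearMap.range π₂ := ⟨⟨_, hvW⟩, rfl⟩
      rw [hb] at this
      exact this
  let e₁ := LinearEquiv.ofBijective π₁ ⟨hinj₁, hs₁⟩
  let e₂ := LinearEquiv.ofBijective π₂ ⟨hinj₂, hs₂⟩
  refine ⟨e₁.symm.trans e₂, fun g => LinearMap.ext fun x => ?_⟩
  obtain ⟨y, rfl⟩ := (e₁.symm.trans e₂).surjective x
  obtain ⟨y, rfl⟩ := e₁.surjective y
  rw [LinearEquiv.conj_apply_apply, LinearEquiv.symm_apply_apply]
  have e3 : ρ g (e₁ y) = e₁ ⟨τ g y, hWinv g y.2⟩ := rfl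
  rw [e3, LinearEquiv.trans_apply, LinearEquiv.trans_apply, LinearEquiv.symm_apply_apply,
    LinearEquiv.symm_apply_apply]
  rfl

end CfsgLib.Chev.Sys
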