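import Cfsg.Agent.Chev.CurtisRichen.Ops

/-!
# Weights and weight vectors

A weight gives for each fundamental root a character of `Fˣ` and, if it is trivial, one of the two
eigenvalues `0`, `-1` of `T_i`. Every non-zero representation has a weight vector.
-/

set_option autoImplicit false
set_option linter.unusedSectionVars false
set_option linter.unusedDecidableInType false

namespace CfsgLib.Chev.Sys

open Cfsg Cfsg.Lie

universe u v w w'

/-- The possible weights at all fundamental roots. -/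
abbrev Wgt {D : ChevalleyDatum} (_S : Sys.{u} D) (F : Type u) [Field F] (k : Type v) [Field k] :=
  Fin D.rank → Option (Fˣ →* kˣ)

/-- The character of a weight at one root. -/
def wchi {F : Type u} [Field F] {k : Type v} [Field k] : Option (Fˣ →* kˣ) → (Fˣ →* kˣ)
  | none => 1
  | some χ => χ

open Classical in
/-- The eigenvalue of a weight at one root. -/
noncomputable def wev {F : Type u} [Field F] {k : Type v} [Field k] : Option (Fˣ →* kˣ) → k
  | none => 0
  | some χ => if χ = 1 then -1 else 0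

theorem wpair_inj {F : Type u} [Field F] {k : Type v} [Field k] {o o' : Option (Fˣ →* kˣ)}
    (h1 : wchi o = wchi o') (h2 : wev o = wev o') : o = o' := by
  classical
  rcases o with _ | χ <;> rcases o' with _ | χ'
  · rfl
  · simp only [wchi, wev] at h1 h2
    rw [if_pos h1.symm] at h2
    exact absurd h2 (by simp)
  · simp only [wchi, wev] at h1 h2
    rw [if_pos h1] at h2
    exact absurd h2 (by simp)
  · simp only [wchi] at h1
    rw [h1]

variable {D : ChevalleyDatum} (S : Sys.{u} D) {F : Type u} [Field F] [Fintype F]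
variable {k : Type v} [Field k] {V : Type w} [AddCommGroup V] [Module k V]
variable (ρ : Representation k (D.group F) V)

/-- A weight vector. -/
def HasWt (v : V) (ω : S.Wgt F k) : Prop :=
  v ≠ 0 ∧ S.UFix ρ v ∧
    (∀ (i : Fin D.rank) (a : Fˣ), ρ (S.etaG F i i.2 a) v = (wchi (ω i) a : k) • v) ∧
    ∀ i : Fin D.rank, S.Tq ρ i v = wev (ω i) • v

variable {S ρ}

theorem HasWt.eig {v : V} {ω : S.Wgt F k} (h : S.HasWt ρ v ω) : S.Eig ρ v := by
  refine ⟨h.2.1, ?_⟩
  let K : Subgroup (D.group F) :=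
    { carrier := {g | ∃ c : k, c ≠ 0 ∧ ρ g v = c • v}
      one_mem' := ⟨1, one_ne_zero, by simp⟩
      mul_mem' := fun {a b} ⟨c, hc0, hc⟩ ⟨d, hd0, hd⟩ => ⟨c * d, mul_ne_zero hc0 hd0, by
        rw [rep_mul_apply, hd, map_smul, hc, smul_smul, mul_comm]⟩
      inv_mem' := fun {a} ⟨c, hc0, hc⟩ => ⟨c⁻¹, inv_ne_zero hc0, by
        conv_rhs => rw [← Representation.inv_self_apply ρ a v, hc, map_smul, inv_smul_smul₀ hc0]⟩ }
  intro g hg
  obtain ⟨c, -, hc⟩ := S.diag_le_of_eta K (fun j a => ⟨_, (wchi (ω j) a).ne_zero, h.2.2.1 j a⟩) hg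
  exact ⟨c, hc⟩

theorem HasWt.unique {v : V} {ω ω' : S.Wgt F k} (h : S.HasWt ρ v ω) (h' : S.HasWt ρ v ω') : ω = ω' :=
  funext fun i => wpair_inj
    (MonoidHom.ext fun a => Units.ext (smul_left_injective k h.1 ((h.2.2.1 i a).symm.trans (h'.2.2.1 i a))))
    (smul_left_injective k h.1 ((h.2.2.2 i).symm.trans (h'.2.2.2 i)))

/-- An equivariant map carries weight vectors to weight vectors. -/
theorem HasWt.map {W : Type w'} [AddCommGroup W] [Module k W] {σ : Representation k (D.group F) W}
    {v : V} {ω : S.Wgt F k} (h : S.HasWt ρ v ω) (f : V →ₗ[k] W) (hf : ∀ g x, σ g (f x) = f (ρ g x))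
    (h0 : f v ≠ 0) : S.HasWt σ (f v) ω :=
  ⟨h0, fun u hu => by rw [hf, h.2.1 u hu], fun i a => by rw [hf, h.2.2.1, map_smul], fun i => by
    rw [S.Tq_apply, Finset.sum_congr rfl fun t _ => hf _ v, ← map_sum, ← S.Tq_apply, h.2.2.2, map_smul]⟩

variable (S ρ)

/-- A `p`-group fixes a non-zero vector in characteristic `p`. -/
theorem exists_fixed_of_pGroup {G : Type*} [Group G] (p : ℕ) [Fact p.Prime] [CharP k p]
    (σ : Representation k G V) (U : Subgroup G) [Finite U] (hU : IsPGroup p U) [Nontrivial V] :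
    ∃ v : V, v ≠ 0 ∧ ∀ u ∈ U, σ u v = v := by
  classical
  haveI := Fintype.ofFinite U
  obtain ⟨x, hx⟩ := exists_ne (0 : V)
  let φ : (U → ZMod p) →+ V :=
    { toFun := fun f => ∑ u : U, (ZMod.castHom dvd_rfl k (f u)) • σ (u : G) x
      map_zero' := by simp
      map_add' := fun f g => by simp [add_smul, Finset.sum_add_distrib] }
  have hstab : ∀ (u : U) (y : φ.range), σ (u : G) (y : V) ∈ φ.range := by
    rintro u ⟨_, f, rfl⟩
    refine ⟨fun w => f (u⁻¹ * w), ?_⟩
    show ∑ w : U, _ = σ (u : G) (∑ w : U, _)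
    rw [map_sum]
    refine Fintype.sum_equiv (Equiv.mulLeft u⁻¹) _ _ fun w => ?_
    rw [map_smul, ← Module.End.mul_apply, ← map_mul, Equiv.coe_mulLeft,
      show (u : G) * ((u⁻¹ * w : U) : G) = (w : G) by push_cast; group]
  letI : SMul U φ.range := ⟨fun u y => ⟨σ (u : G) (y : V), hstab u y⟩⟩
  letI : MulAction U φ.range :=
    { one_smul := fun y => Subtype.ext (by
        show σ ((1 : U) : G) (y : V) = y
        simp)
      mul_smul := fun a b y => Subtype.ext (by
        show σ ((a * b : U) : G) (y : V) = σ (a : G) (σ (b : G) (y : V))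
        rw [Subgroup.coe_mul, map_mul]; rfl) }
  haveI : Finite φ.range := Finite.of_surjective φ.rangeRestrict φ.rangeRestrict_surjective
  have hdvd : p ∣ Nat.card φ.range := by
    have h1 : Nat.card φ.range ∣ Nat.card (U → ZMod p) := AddSubgroup.card_range_dvd φ
    rw [Nat.card_fun, Nat.card_zmod] at h1
    obtain ⟨m, -, hm⟩ := (Nat.dvd_prime_pow Fact.out).1 h1
    rcases Nat.eq_zero_or_pos m with rfl | hm0
    · exfalso
      rw [pow_zero] at hm
      obtain ⟨hs⟩ := (Nat.card_eq_one_iff_unique.1 hm).1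
      have hmem : σ ((1 : U) : G) x ∈ φ.range := ⟨Pi.single 1 1, by
        show ∑ u : U, _ = _
        rw [Finset.sum_eq_single (1 : U)]
        · rw [Pi.single_eq_same, map_one, one_smul]
        · intro b _ hb; rw [Pi.single_eq_of_ne hb, map_zero, zero_smul]
        · simp⟩
      have := congrArg Subtype.val (hs ⟨_, hmem⟩ 0)
      simp at this
      exact hx this
    · rw [hm]
      exact dvd_pow_self p hm0.ne'
  have h0 : (0 : φ.range) ∈ MulAction.fixedPoints U φ.range := fun u => Subtype.ext (map_zero _)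
  obtain ⟨y, hy, hne⟩ := hU.exists_fixed_point_of_prime_dvd_card_of_fixed_point _ hdvd h0
  refine ⟨y, fun h => hne (Subtype.ext h.symm), fun u hu => congrArg Subtype.val (hy ⟨u, hu⟩)⟩

/-- A commuting family has a common eigenvector in a non-zero invariant subspace. -/
theorem exists_common_eigenvector [IsAlgClosed k] [FiniteDimensional k V] {ι : Type*}
    (f : ι → Module.End k V) (hc : ∀ a b, Commute (f a) (f b)) (s : Finset ι) :
    ∀ W : Submodule k V, W ≠ ⊥ → (∀ a, ∀ x ∈ W, f a x ∈ W) →
      ∃ v ∈ W, v ≠ 0 ∧ ∀ a ∈ s, ∃ c : k, f a v = c • v := by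
  classical
  induction s using Finset.induction_on with
  | empty =>
    intro W hW _
    obtain ⟨v, hv, h0⟩ := Submodule.exists_mem_ne_zero_of_ne_bot hW
    exact ⟨v, hv, h0, by simp⟩
  | insert a s _ ih =>
    intro W hW hinv
    haveI : Nontrivial W := Submodule.nontrivial_iff_ne_bot.2 hW
    obtain ⟨μ, hμ⟩ := Module.End.exists_eigenvalue ((f a).restrict (hinv a))
    obtain ⟨x, hx⟩ := hμ.exists_hasEigenvector
    have hxe : f a (x : V) = μ • (x : V) := congrArg Subtype.val hx.apply_eq_smul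
    obtain ⟨v, hv, h0, hs⟩ := ih (W ⊓ LinearMap.ker (f a - μ • 1))
      ((Submodule.ne_bot_iff _).2 ⟨(x : V), ⟨x.2, by simp [LinearMap.mem_ker, hxe]⟩,
        fun h => hx.2 (Subtype.ext h)⟩)
      (fun b y hy => ⟨hinv b y hy.1, by
        have h1 : f a y = μ • y := by
          have := hy.2
          simp only [SetLike.mem_coe, LinearMap.mem_ker, LinearMap.sub_apply, LinearMap.smul_apply,
            Module.End.one_apply, sub_eq_zero] at this
          exact this
        simp only [SetLike.mem_coe, LinearMap.mem_ker, LinearMap.sub_apply, LinearMap.smul_apply,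
          Module.End.one_apply, sub_eq_zero]
        rw [← Module.End.mul_apply, (hc a b).eq, Module.End.mul_apply, h1, map_smul]⟩)
    refine ⟨v, hv.1, h0, fun b hb => ?_⟩
    rcases Finset.mem_insert.1 hb with rfl | hb
    · refine ⟨μ, ?_⟩
      have := hv.2
      simp only [SetLike.mem_coe, LinearMap.mem_ker, LinearMap.sub_apply, LinearMap.smul_apply,
        Module.End.one_apply, sub_eq_zero] at this
      exact this
    · exact hs b hb

theorem exists_eig (p : ℕ) [Fact p.Prime] [CharP F p] [CharP k p] [IsAlgClosed k]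
    [FiniteDimensional k V] [Nontrivial V] : ∃ v : V, v ≠ 0 ∧ S.Eig ρ v := by
  classical
  haveI := finite_GL (D := D) (F := F)
  haveI : Finite (D.group F) := Subtype.finite
  haveI := Fintype.ofFinite (D.group F)
  have hU : IsPGroup p (UG F S) := by
    obtain ⟨n, -, hn⟩ := FiniteField.card F p
    refine IsPGroup.of_card (n := (n : ℕ) * (D.nroots / 2)) ?_
    rw [Nat.card_congr (Subgroup.subgroupOfEquivOfLe S.pos_le_group).toEquiv, S.card_pos,
      Nat.card_eq_fintype_card, hn, pow_mul]
  obtain ⟨x, hx0, hx⟩ := exists_fixed_of_pGroup p ρ (UG F S) hU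
  let W : Submodule k V := ⨅ u : UG F S, LinearMap.ker (ρ (u : D.group F) - 1)
  have hW : ∀ y, y ∈ W ↔ S.UFix ρ y := fun y => by
    simp [W, UFix, sub_eq_zero]
  obtain ⟨v, hv, h0, hs⟩ := exists_common_eigenvector
    (fun h : HG F S => ρ (h : D.group F))
    (fun a b => by
      show ρ (a : D.group F) * ρ (b : D.group F) = ρ (b : D.group F) * ρ (a : D.group F)
      rw [← map_mul, ← map_mul, S.HG_comm a.2 b.2])
    Finset.univ W ((Submodule.ne_bot_iff _).2 ⟨x, (hW x).2 hx, hx0⟩)
    (fun h y hy => (hW _).2 fun u hu => by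
      have h1 : (h : D.group F)⁻¹ * u * h ∈ UG F S := by
        have := S.diag_conj_pos (inv_mem (Subgroup.mem_subgroupOf.1 h.2))
          (Subgroup.mem_subgroupOf.1 hu)
        rw [inv_inv] at this
        exact Subgroup.mem_subgroupOf.2 (by push_cast; exact this)
      rw [← rep_mul_apply, show u * (h : D.group F) = h * ((h : D.group F)⁻¹ * u * h) by group,
        rep_mul_apply, (hW y).1 hy _ h1])
  exact ⟨v, h0, (hW v).1 hv, fun h hh => hs ⟨h, hh⟩ (Finset.mem_univ _)⟩

theorem wlen_le (w : Equiv.Perm (Fin D.nroots)) : wlen w ≤ D.nroots := by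
  rw [wlen]
  exact (Finset.card_le_univ _).trans (Fintype.card_fin _).le

/-- Every non-zero representation has a weight vector. -/
theorem exists_hasWt (p : ℕ) [Fact p.Prime] [CharP F p] [CharP k p] [IsAlgClosed k]
    [FiniteDimensional k V] [Nontrivial V] : ∃ (v : V) (ω : S.Wgt F k), S.HasWt ρ v ω := by
  classical
  haveI := finite_GL (D := D) (F := F)
  haveI : Finite (D.group F) := Subtype.finite
  haveI := Fintype.ofFinite (D.group F)
  have hk : (Fintype.card F : k) = 0 := by
    obtain ⟨n, -, hn⟩ := FiniteField.card F p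
    rw [hn, Nat.cast_pow, CharP.cast_eq_zero k p, zero_pow n.pos.ne']
  obtain ⟨b, hb0, hb⟩ := S.exists_eig ρ p
  let P : ℕ → Prop := fun n => ∃ L : List ℕ, (∀ x ∈ L, x < D.rank) ∧ S.cellSum ρ L b ≠ 0 ∧ wlen (S.wprod L) = n
  have hne : P 0 := by
    refine ⟨[], by simp, ?_, by simp [S.wlen_one]⟩
    rw [S.cellSum_eq, LinearMap.sum_apply, Finset.sum_eq_single (1 : D.group F)]
    · simpa [nL] using hb0
    · intro u hu hne
      refine absurd ?_ hne
      rw [Finset.mem_filter, wprod_nil, inv_one] at hu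
      have h2 : S.uminus F (1 : Equiv.Perm (Fin D.nroots)) ≤ ⊥ :=
        S.genBy_le fun r h1 h2 h3 t => absurd h1 (not_le.2 (by
          obtain ⟨_, h⟩ := h3
          simpa using h))
      exact Subtype.ext (Subgroup.mem_bot.1 (h2 hu.2))
    · intro h
      exact absurd (Finset.mem_filter.2 ⟨Finset.mem_univ _, by simp⟩) h
  obtain ⟨L, hL, hv0, hLn⟩ : P (Nat.findGreatest P D.nroots) := Nat.findGreatest_spec (Nat.zero_le _) hne
  set v := S.cellSum ρ L b with hv
  have he : S.Eig ρ v := S.Eig_cellSum ρ hb L hL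
  have hi : ∀ i : Fin D.rank, ∃ o : Option (Fˣ →* kˣ),
      (∀ a, ρ (S.etaG F i i.2 a) v = (wchi o a : k) • v) ∧ S.Tq ρ i v = wev o • v := by
    intro i
    obtain ⟨χ, hχ⟩ := exists_char ρ (S.etaG F i i.2) hv0 fun a => he.2 _ (S.etaG_mem i.2 a)
    by_cases hpos : S.Pos ((S.wprod L)⁻¹ (S.sr i))
    · have hlen : wlen (S.wprod ((i : ℕ) :: L)) = wlen (S.wprod L) + 1 := by
        rw [wprod_cons]
        exact S.refl_mul_wlen (S.wprod_mem_weyl L) i hpos
      have hT : S.Tq ρ i v = 0 := by
        rw [hv, ← Module.End.mul_apply, S.Tq_cellSum_asc ρ hL i hpos]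
        by_contra hne'
        refine Nat.findGreatest_is_greatest (P := P) (n := D.nroots)
          (k := wlen (S.wprod ((i : ℕ) :: L))) (by omega) (wlen_le _) ?_
        exact ⟨_, List.forall_mem_cons.2 ⟨i.2, hL⟩, hne', rfl⟩
      by_cases h1 : χ = 1
      · exact ⟨none, fun a => by rw [hχ, h1]; rfl, by rw [hT]; simp [wev]⟩
      · exact ⟨some χ, hχ, by rw [hT]; simp [wev, if_neg h1]⟩
    · refine ⟨some χ, hχ, ?_⟩
      simp only [wev]
      rw [hv] at hχ ⊢
      convert S.Tq_cellSum_desc ρ hk hL i hb hpos hχ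
  choose ω h1 h2 using hi
  exact ⟨v, ω, hv0, he.1, h1, h2⟩

end CfsgLib.Chev.Sys
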